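import Mathlib
import Cfsg.Agent.RankThree.Closed
import Cfsg.Agent.H4.Final
import Cfsg.Agent.Cop.Basic

/-!
Normal sets of involutions with products of odd order (via the `Z*`-theorem).
-/

set_option autoImplicit false

namespace Cfsg.Agent.RankThree

open Cfsg Cfsg.Agent.H4

variable {G : Type*} [Group G]

theorem oddComm_of_odd {D : Set G} (h2 : ∀ d ∈ D, orderOf d = 2)
    (hconj : ∀ d ∈ D, ∀ g : G, g * d * g⁻¹ ∈ D)
    (hodd : ∀ d ∈ D, ∀ e ∈ D, Odd (orderOf (d * e))) {d : G} (hd : d ∈ D) :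
    OddComm d := by
  intro g
  rw [comm_eq_mul_conj (h2 d hd)]
  exact hodd d hd _ (hconj d hd g)

theorem comm_mem_core [Finite G] {D : Set G} (h2 : ∀ d ∈ D, orderOf d = 2)
    (hconj : ∀ d ∈ D, ∀ g : G, g * d * g⁻¹ ∈ D)
    (hodd : ∀ d ∈ D, ∀ e ∈ D, Odd (orderOf (d * e))) {d : G} (hd : d ∈ D) (g : G) :
    d * g * d⁻¹ * g⁻¹ ∈ pPrimeCore 2 G :=
  zstar (h2 d hd) (oddComm_of_odd h2 hconj hodd hd) g

theorem central_of_odd [Finite G] {D : Set G} (h2 : ∀ d ∈ D, orderOf d = 2)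
    (hconj : ∀ d ∈ D, ∀ g : G, g * d * g⁻¹ ∈ D)
    (hodd : ∀ d ∈ D, ∀ e ∈ D, Odd (orderOf (d * e)))
    (hns : ∀ N : Subgroup G, N.Normal → Odd (Nat.card N) → N = ⊥) {d : G} (hd : d ∈ D) (g : G) :
    d * g = g * d := by
  have h1 := comm_mem_core h2 hconj hodd hd g
  rw [hns _ inferInstance odd_card_pPrimeCore_two, Subgroup.mem_bot] at h1
  rw [mul_inv_eq_one, mul_inv_eq_iff_eq_mul] at h1
  exact h1

theorem card_pow_normal [Finite G] {p : ℕ} (hp : p.Prime) (hp2 : p ≠ 2) {W : Set G}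
    (hne : W.Nonempty) (h2 : ∀ w ∈ W, orderOf w = 2) (hconj : ∀ w ∈ W, ∀ g : G, g * w * g⁻¹ ∈ W)
    (hpow : ∀ w ∈ W, ∀ v ∈ W, (w * v) ^ p = 1) : ∃ e : ℕ, Nat.card W = p ^ e := by
  obtain ⟨w, hw⟩ := hne
  have hpo : Odd p := hp.odd_of_ne_two hp2
  have hodd : ∀ d ∈ W, ∀ e ∈ W, Odd (orderOf (d * e)) := by
    intro d hd e he
    exact hpo.of_dvd_nat (orderOf_dvd_of_pow_eq_one (hpow d hd e he))
  set N := pPrimeCore 2 G with hN
  have hNodd : Odd (Nat.card N) := odd_card_pPrimeCore_two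
  have hwN : ∀ g : G, w * g * w⁻¹ * g⁻¹ ∈ N := comm_mem_core h2 hconj hodd hw
  have hww : w * w = 1 := by
    have := pow_orderOf_eq_one w
    rwa [h2 w hw, pow_two] at this
  have hwi : w⁻¹ = w := inv_eq_of_mul_eq_one_left hww
  have hvN : ∀ v ∈ W, ∃ n ∈ N, n * w * n⁻¹ = v := by
    intro v hv
    have hvv : v * v = 1 := by
      have := pow_orderOf_eq_one v
      rwa [h2 v hv, pow_two] at this
    have hc := conj_of_pow hww hvv hpo (hpow v hv w hw)
    refine ⟨_, ?_, hc⟩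
    apply pow_mem
    have h1 := hwN ((v * w) ^ ((p + 1) / 2))
    have h2 : w * (v * w) ^ ((p + 1) / 2) * w⁻¹ * ((v * w) ^ ((p + 1) / 2))⁻¹ = w * v := by
      nth_rewrite 3 [← hc]
      rw [hwi]; group
    rw [h2] at h1
    have h3 : v * w = (w * v)⁻¹ := by
      rw [mul_inv_rev, hwi, inv_eq_of_mul_eq_one_left hvv]
    rw [h3]
    exact inv_mem h1
  -- `|W| = |N : C_N(w)|`
  set C : Subgroup N := (Subgroup.centralizer ({w} : Set G)).subgroupOf N with hC
  have hcard : Nat.card W = C.index := by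
    rw [Subgroup.index]
    symm
    have hf : ∀ n : N, (n : G) * w * (n : G)⁻¹ ∈ W := fun n => hconj w hw n
    let f : N ⧸ C → W := Quotient.lift (s := QuotientGroup.leftRel C)
      (fun n : N => (⟨(n : G) * w * (n : G)⁻¹, hf n⟩ : W)) (by
        intro a b hab
        rw [← Quotient.eq_iff_equiv, Quotient.eq, QuotientGroup.leftRel_apply] at hab
        rw [hC, Subgroup.mem_subgroupOf, Subgroup.mem_centralizer_singleton_iff] at hab
        apply Subtype.ext
        have h1 : ((a : G)⁻¹ * b) * w = w * ((a : G)⁻¹ * b) := by simpa using hab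
        change (a : G) * w * (a : G)⁻¹ = b * w * (b : G)⁻¹
        rw [eq_mul_inv_iff_mul_eq]
        calc (a : G) * w * (a : G)⁻¹ * b = a * (w * ((a : G)⁻¹ * b)) := by group
          _ = a * (((a : G)⁻¹ * b) * w) := by rw [h1]
          _ = b * w := by group)
    apply Nat.card_congr
    refine Equiv.ofBijective f ⟨?_, ?_⟩
    · rintro ⟨a⟩ ⟨b⟩ hab
      have h1 : (a : G) * w * (a : G)⁻¹ = b * w * (b : G)⁻¹ := congrArg Subtype.val hab
      apply Quotient.sound
      rw [← Quotient.eq_iff_equiv, Quotient.eq, QuotientGroup.leftRel_apply]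
      rw [hC, Subgroup.mem_subgroupOf, Subgroup.mem_centralizer_singleton_iff]
      rw [eq_mul_inv_iff_mul_eq] at h1
      have h2 : ((a : G)⁻¹ * b) * w = w * ((a : G)⁻¹ * b) := by
        rw [mul_assoc, ← h1]; group
      simpa using h2
    · rintro ⟨v, hv⟩
      obtain ⟨n, hn, hnv⟩ := hvN v hv
      exact ⟨QuotientGroup.mk (⟨n, hn⟩ : N), Subtype.ext hnv⟩
  have hpos : Nat.card W ≠ 0 := by
    rw [Nat.card_ne_zero]
    exact ⟨⟨⟨w, hw⟩⟩, inferInstance⟩
  refine ⟨_, Nat.eq_prime_pow_of_unique_prime_dvd hpos ?_⟩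
  intro r hr hrd
  by_contra hrp
  have : Fact r.Prime := ⟨hr⟩
  rw [hcard] at hrd
  -- an invariant Sylow subgroup
  have hcw : Nat.card (Subgroup.zpowers w) = 2 := by rw [Nat.card_zpowers, h2 w hw]
  obtain ⟨P, hP⟩ := Cfsg.Agent.Cop.exists_invariant_sylow (A := Subgroup.zpowers w) (K := N)
    (by rw [Subgroup.normalizer_eq_top]; exact le_top) (by
      rw [hcw, Nat.coprime_two_left]
      exact hNodd)
    (Or.inl (by
      apply Group.isSolvable_of_comm
      rintro ⟨a, ha⟩ ⟨b, hb⟩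
      obtain ⟨i, rfl⟩ := Subgroup.mem_zpowers_iff.1 ha
      obtain ⟨j, rfl⟩ := Subgroup.mem_zpowers_iff.1 hb
      apply Subtype.ext
      change w ^ i * w ^ j = w ^ j * w ^ i
      rw [← zpow_add, ← zpow_add, add_comm])) r
  apply P.not_dvd_index
  refine hrd.trans (Subgroup.index_dvd_of_le ?_)
  intro s hs
  rw [hC, Subgroup.mem_subgroupOf, Subgroup.mem_centralizer_singleton_iff]
  have hwn := hP (Subgroup.mem_zpowers w)
  rw [Subgroup.mem_normalizer_iff] at hwn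
  have h3 : (s : G) ∈ (P : Subgroup N).map N.subtype := ⟨s, hs, rfl⟩
  have h4 := (hwn (s : G)).1 h3
  have h5 : w * (s : G) * w⁻¹ * (s : G)⁻¹ ∈ (P : Subgroup N).map N.subtype :=
    mul_mem h4 (inv_mem h3)
  have h6 : (w * (s : G) * w⁻¹ * (s : G)⁻¹) ^ p = 1 := by
    rw [comm_eq_mul_conj (h2 w hw)]
    exact hpow w hw _ (hconj w hw _)
  obtain ⟨q, hq, hq'⟩ := h5
  obtain ⟨k, hk⟩ := P.isPGroup' ⟨q, hq⟩
  have h7 : (w * (s : G) * w⁻¹ * (s : G)⁻¹) ^ (r ^ k) = 1 := by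
    rw [← hq']
    have : q ^ (r ^ k) = 1 := congrArg Subtype.val hk
    rw [← map_pow, this, map_one]
  have h8 : orderOf (w * (s : G) * w⁻¹ * (s : G)⁻¹) ∣ Nat.gcd p (r ^ k) :=
    Nat.dvd_gcd (orderOf_dvd_of_pow_eq_one h6) (orderOf_dvd_of_pow_eq_one h7)
  have h9 : Nat.gcd p (r ^ k) = 1 :=
    Nat.Coprime.pow_right k ((Nat.coprime_primes hp hr).2 (fun e => hrp e.symm))
  rw [h9] at h8
  have h10 := orderOf_eq_one_iff.1 (Nat.dvd_one.1 h8)
  rw [mul_inv_eq_one, mul_inv_eq_iff_eq_mul] at h10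
  exact h10.symm

/-- A set of involutions of a finite group closed under conjugation by its own members, with all
products of order 1 or `p`, has order a power of `p`. -/
theorem card_pow [Finite G] {p : ℕ} (hp : p.Prime) (hp2 : p ≠ 2) {W : Set G}
    (hne : W.Nonempty) (h2 : ∀ w ∈ W, orderOf w = 2) (hconj : ∀ w ∈ W, ∀ v ∈ W, v * w * v⁻¹ ∈ W)
    (hpow : ∀ w ∈ W, ∀ v ∈ W, (w * v) ^ p = 1) : ∃ e : ℕ, Nat.card W = p ^ e := by
  set H := Subgroup.closure W with hH
  have hWH : ∀ w ∈ W, w ∈ H := fun w hw => Subgroup.subset_closure hw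
  set W' : Set H := {h | (h : G) ∈ W} with hW'
  have hconjH : ∀ g ∈ H, (∀ w ∈ W, g * w * g⁻¹ ∈ W) := by
    intro g hg
    induction hg using Subgroup.closure_induction'' with
    | mem x hx => exact fun w hw => hconj w hw x hx
    | inv_mem x hx =>
      intro w hw
      have hxi : x⁻¹ = x := by
        apply inv_eq_of_mul_eq_one_left
        have := pow_orderOf_eq_one x
        rwa [h2 x hx, pow_two] at this
      have := hconj w hw x hx
      rw [hxi] at this
      rw [hxi, hxi]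
      exact this
    | one => intro w hw; simpa using hw
    | mul x y _ _ hx hy =>
      intro w hw
      have := hx _ (hy w hw)
      have h3 : x * y * w * (x * y)⁻¹ = x * (y * w * y⁻¹) * x⁻¹ := by group
      rw [h3]; exact this
  have hcard : Nat.card W' = Nat.card W := by
    apply Nat.card_congr
    exact ⟨fun x => ⟨x.1, x.2⟩, fun x => ⟨⟨x.1, hWH _ x.2⟩, x.2⟩, fun x => rfl, fun x => rfl⟩
  rw [← hcard]
  obtain ⟨w, hw⟩ := hne
  apply card_pow_normal hp hp2 (W := W') ⟨⟨w, hWH w hw⟩, hw⟩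
  · intro x hx
    rw [← h2 _ hx]
    exact (Subgroup.orderOf_coe x).symm
  · intro x hx g
    exact hconjH g g.2 _ hx
  · intro x hx y hy
    exact Subtype.ext (hpow _ hx _ hy)

end Cfsg.Agent.RankThree
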