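import Mathlib
import Cfsg.Agent.RankThree.PPow

/-!
The clique lemma.
-/

set_option autoImplicit false

namespace Cfsg.Agent.RankThree

variable {G : Type*} [Group G]

/-- the situation of the clique lemma -/
structure Cliq (p : ℕ) (D : Set G) : Prop extends PSet p D where
  prime : p.Prime
  two : p ≠ 2
  trans : ∀ x ∈ D, ∀ y ∈ D, ∀ z ∈ D, x * y = y * x → y * z = z * y → x * z = z * x
  closed : ∀ x ∈ D, ∀ y ∈ D, x * y = y * x → x ≠ y → x * y ∈ D
  single : ∀ x ∈ D, ∀ y ∈ D, ∃ g : G, g * x * g⁻¹ = y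
  cent : ∀ x ∈ D, ∀ y ∈ D, x * y ≠ y * x → ∀ g : G, (∀ d ∈ D, d * x = x * d → g * d = d * g) →
    (∀ d ∈ D, d * y = y * d → g * d = d * g) → g = 1
  exc : ∃ x ∈ D, ∃ y ∈ D, x * y = y * x ∧ x ≠ y
  exn : ∃ x ∈ D, ∃ y ∈ D, x * y ≠ y * x

theorem odd_pow_aux {g : G} {p : ℕ} (hp : Odd p) (hg : g ^ p = 1) (h4 : g ^ 4 = 1) : g = 1 := by
  have h6 : orderOf g ∣ Nat.gcd 4 p :=
    Nat.dvd_gcd (orderOf_dvd_of_pow_eq_one h4) (orderOf_dvd_of_pow_eq_one hg)
  have h7 : Nat.gcd 4 p = 1 := by
    have : Nat.Coprime (2 ^ 2) p := Nat.Coprime.pow_left 2 ((Nat.coprime_two_left).2 hp)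
    exact this
  rw [h7] at h6
  exact orderOf_eq_one_iff.1 (Nat.dvd_one.1 h6)

/-- if `w` and `x` are elements of `D` and `w x w` commutes with `x` then `w` commutes with `x` -/
theorem PSet.commute_of_conj {p : ℕ} {D : Set G} (h : PSet p D) (hp : Odd p) {w x : G}
    (hw : w ∈ D) (hx : x ∈ D) (hc : (w * x * w) * x = x * (w * x * w)) : w * x = x * w := by
  by_contra hne
  have h1 := h.pow_eq_one hw hx hne
  have h2 : (w * x) ^ 4 = 1 := by
    have h3 : (w * x) ^ 4 = ((w * x * w) * x) * ((w * x * w) * x) := by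
      simp only [pow_succ, pow_zero, one_mul, mul_assoc]
    rw [h3]
    nth_rewrite 1 [hc]
    calc x * (w * x * w) * (w * x * w * x) = x * w * x * (w * w) * x * w * x := by group
      _ = x * w * (x * x) * w * x := by rw [h.sq w hw]; group
      _ = x * (w * w) * x := by rw [h.sq x hx]; group
      _ = 1 := by rw [h.sq w hw, mul_one, h.sq x hx]
  have h3 := odd_pow_aux hp h1 h2
  apply hne
  have h4 : w = x := by
    have := eq_inv_of_mul_eq_one_left h3
    rw [this, h.inv hx]
  rw [h4]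

theorem arith_aux {p e k : ℕ} (hp : p.Prime) (hp2 : p ≠ 2) (h : p ^ e + 1 = 2 ^ k) (hk : 2 ≤ k) :
    e = 1 := by
  have hpo : Odd p := hp.odd_of_ne_two hp2
  have hp3 : 3 ≤ p := by
    have := hp.two_le
    omega
  have h4 : 4 ∣ 2 ^ k := by
    have : 2 ^ 2 ∣ 2 ^ k := pow_dvd_pow 2 hk
    simpa using this
  rcases Nat.even_or_odd' e with ⟨m, rfl | rfl⟩
  · exfalso
    obtain ⟨q, hq⟩ := hpo
    have h1 : p ^ 2 % 4 = 1 := by
      rw [hq]
      have : (2 * q + 1) ^ 2 = 4 * (q * q + q) + 1 := by ring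
      rw [this]; omega
    have h2 : p ^ (2 * m) % 4 = 1 := by
      rw [pow_mul, Nat.pow_mod, h1]; simp
    omega
  · have h1 : p + 1 ∣ p ^ (2 * m + 1) + 1 := by
      have := Odd.nat_add_dvd_pow_add_pow p 1 (n := 2 * m + 1) ⟨m, rfl⟩
      simpa using this
    rw [h] at h1
    obtain ⟨j, hj, hpj⟩ := (Nat.dvd_prime_pow Nat.prime_two).1 h1
    have hj2 : 2 ≤ j := by
      by_contra hlt
      have : j = 0 ∨ j = 1 := by omega
      rcases this with rfl | rfl <;> omega
    -- `p ^ 2 ≡ 1 mod 2 ^ (j + 1)`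
    have h2 : p ^ 2 ≡ 1 [MOD 2 ^ (j + 1)] := by
      have h3 : p ^ 2 + 2 ^ (j + 1) = 2 ^ (j + 1) * 2 ^ (j - 1) + 1 := by
        have h4 : 2 ^ (j + 1) * 2 ^ (j - 1) = (2 ^ j) * (2 ^ j) := by
          rw [← pow_add, ← pow_add]; congr 1; omega
        rw [h4, ← hpj, pow_succ 2 j, ← hpj]; ring
      have h5 : p ^ 2 + 2 ^ (j + 1) ≡ 1 [MOD 2 ^ (j + 1)] := by
        rw [h3]
        have := (Nat.modEq_zero_iff_dvd.2 (Dvd.intro (2 ^ (j - 1)) rfl :
          2 ^ (j + 1) ∣ 2 ^ (j + 1) * 2 ^ (j - 1)))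
        simpa using this.add_right 1
      have h6 : p ^ 2 + 2 ^ (j + 1) ≡ p ^ 2 [MOD 2 ^ (j + 1)] := by simp
      exact h6.symm.trans h5
    have h3 : p ^ (2 * m + 1) + 1 ≡ p + 1 [MOD 2 ^ (j + 1)] := by
      apply Nat.ModEq.add_right
      rw [pow_succ p, pow_mul]
      have := (h2.pow m).mul_right p
      simpa using this
    rw [h, hpj] at h3
    have hkj : k = j := by
      by_contra hne
      have h5 : j + 1 ≤ k := by omega
      have h6 : 2 ^ k ≡ 0 [MOD 2 ^ (j + 1)] := Nat.modEq_zero_iff_dvd.2 (pow_dvd_pow 2 h5)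
      have h7 := h3.symm.trans h6
      rw [Nat.modEq_zero_iff_dvd] at h7
      have := Nat.le_of_dvd (by positivity) h7
      have := Nat.pow_lt_pow_right (a := 2) (by norm_num) (show j < j + 1 by omega)
      omega
    rw [hkj, ← hpj] at h
    have h8 : p ^ (2 * m + 1) = p ^ 1 := by
      rw [pow_one]; omega
    exact Nat.pow_right_injective hp.two_le h8

/-- a permutation of `p`-power order of a set of `p` elements with a fixed point is trivial -/
theorem fix_all {p : ℕ} (hp : p.Prime) {S : Set G} (hS : Nat.card S = p) {g : G}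
    (hg : g ^ p = 1) (hgS : ∀ s ∈ S, g * s * g⁻¹ ∈ S) {s : G} (hs : s ∈ S)
    (hgs : g * s = s * g) : ∀ t ∈ S, g * t = t * g := by
  classical
  have : Fact p.Prime := ⟨hp⟩
  have hfin : Finite S := by
    apply Nat.finite_of_card_ne_zero
    rw [hS]; exact hp.ne_zero
  have := Fintype.ofFinite S
  let f : Function.End S := fun t => ⟨g * t * g⁻¹, hgS t t.2⟩
  have hfk : ∀ k : ℕ, ∀ t : S, ((f ^ k) t : S).1 = g ^ k * t * (g ^ k)⁻¹ := by
    intro k
    induction k with
    | zero =>
      intro t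
      rw [pow_zero, pow_zero, one_mul, inv_one, mul_one]
      rfl
    | succ k ih =>
      intro t
      rw [pow_succ]
      change ((f ^ k) (f t)).1 = _
      rw [ih]
      change g ^ k * (g * t * g⁻¹) * (g ^ k)⁻¹ = _
      rw [pow_succ]; group
  have hf : f ^ p ^ 1 = 1 := by
    funext t
    apply Subtype.ext
    rw [hfk, pow_one, hg, one_mul, inv_one, mul_one]
    rfl
  have h1 := Equiv.Perm.card_fixedPoints_modEq hf
  have h2 : Fintype.card S = p := by rw [← Nat.card_eq_fintype_card, hS]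
  rw [h2] at h1
  have h3 : p ∣ Fintype.card f.fixedPoints := by
    have : Fintype.card f.fixedPoints ≡ 0 [MOD p] := h1.symm.trans (by simp [Nat.ModEq])
    exact Nat.modEq_zero_iff_dvd.1 this
  have h4 : 0 < Fintype.card f.fixedPoints := by
    rw [Fintype.card_pos_iff]
    refine ⟨⟨⟨s, hs⟩, ?_⟩⟩
    apply Subtype.ext
    change g * s * g⁻¹ = s
    rw [hgs, mul_assoc, mul_inv_cancel, mul_one]
  have h5 : Fintype.card f.fixedPoints ≤ p := by
    rw [← h2]
    exact Fintype.card_subtype_le _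
  have h6 : Fintype.card f.fixedPoints = p := le_antisymm h5 (Nat.le_of_dvd h4 h3)
  have h7 : ∀ t : S, t ∈ f.fixedPoints := by
    intro t
    by_contra hne
    have : Fintype.card f.fixedPoints < Fintype.card S := Fintype.card_subtype_lt hne
    omega
  intro t ht
  have := h7 ⟨t, ht⟩
  have h8 : g * t * g⁻¹ = t := congrArg Subtype.val this
  rw [mul_inv_eq_iff_eq_mul] at h8
  exact h8

namespace Cliq

variable {p : ℕ} {D : Set G}

theorem odd (h : Cliq p D) : Odd p := h.prime.odd_of_ne_two h.two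

/-- commuting is an equivalence relation -/
def setoid (h : Cliq p D) : Setoid D where
  r x y := (x : G) * y = y * x
  iseqv := ⟨fun _ => rfl, fun e => e.symm, fun {x y z} h1 h2 => h.trans x x.2 y y.2 z z.2 h1 h2⟩

/-- the set of cliques -/
def Om (h : Cliq p D) : Type _ := Quotient h.setoid

instance (h : Cliq p D) [Finite G] : Finite h.Om := by
  unfold Om
  infer_instance

/-- the clique of an element -/
def cq (h : Cliq p D) {x : G} (hx : x ∈ D) : h.Om := Quotient.mk h.setoid ⟨x, hx⟩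

theorem cq_eq (h : Cliq p D) {x y : G} (hx : x ∈ D) (hy : y ∈ D) :
    h.cq hx = h.cq hy ↔ x * y = y * x := by
  unfold cq
  exact Quotient.eq

theorem exists_rep (h : Cliq p D) (α : h.Om) : ∃ x : G, ∃ hx : x ∈ D, h.cq hx = α := by
  obtain ⟨⟨x, hx⟩, rfl⟩ := Quotient.exists_rep α
  exact ⟨x, hx, rfl⟩

/-- conjugation on cliques -/
def act (h : Cliq p D) (g : G) : h.Om → h.Om :=
  Quotient.map (fun x : D => (⟨g * x * g⁻¹, h.conj x x.2 g⟩ : D)) (by
    rintro ⟨x, hx⟩ ⟨y, hy⟩ hxy
    have h1 : x * y = y * x := hxy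
    change g * x * g⁻¹ * (g * y * g⁻¹) = g * y * g⁻¹ * (g * x * g⁻¹)
    calc g * x * g⁻¹ * (g * y * g⁻¹) = g * (x * y) * g⁻¹ := by group
      _ = g * (y * x) * g⁻¹ := by rw [h1]
      _ = _ := by group)

theorem act_cq (h : Cliq p D) (g : G) {x : G} (hx : x ∈ D) :
    h.act g (h.cq hx) = h.cq (h.conj x hx g) := rfl

theorem cq_congr (h : Cliq p D) {x y : G} (hx : x ∈ D) (hy : y ∈ D) (e : x = y) :
    h.cq hx = h.cq hy := by
  subst e; rfl

theorem act_mul (h : Cliq p D) (a b : G) (α : h.Om) : h.act (a * b) α = h.act a (h.act b α) := by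
  obtain ⟨x, hx, rfl⟩ := h.exists_rep α
  rw [act_cq, act_cq, act_cq]
  apply cq_congr
  group

theorem act_one (h : Cliq p D) (α : h.Om) : h.act 1 α = α := by
  obtain ⟨x, hx, rfl⟩ := h.exists_rep α
  rw [act_cq]
  apply cq_congr
  group

theorem act_act (h : Cliq p D) {w : G} (hw : w ∈ D) (α : h.Om) : h.act w (h.act w α) = α := by
  rw [← act_mul, h.sq w hw, act_one]

theorem act_fix (h : Cliq p D) {w x : G} (hw : w ∈ D) (hx : x ∈ D) :
    h.act w (h.cq hx) = h.cq hx ↔ w * x = x * w := by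
  rw [act_cq, cq_eq]
  constructor
  · intro h1
    rw [h.inv hw] at h1
    exact h.commute_of_conj h.odd hw hx h1
  · intro h1
    have h2 : w * x * w⁻¹ = x := by rw [h1, mul_assoc, mul_inv_cancel, mul_one]
    rw [h2]

/-- the clique as a set -/
def cl (D : Set G) (x : G) : Set G := {d | d ∈ D ∧ d * x = x * d}

theorem card_cl (h : Cliq p D) {x y : G} (hx : x ∈ D) (hy : y ∈ D) :
    Nat.card (cl D x) = Nat.card (cl D y) := by
  obtain ⟨g, hg⟩ := h.single x hx y hy
  apply Nat.card_congr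
  have h1 : ∀ g x y : G, g * x * g⁻¹ = y → ∀ d ∈ cl D x, g * d * g⁻¹ ∈ cl D y := by
    rintro g x y rfl d ⟨hd, hdx⟩
    refine ⟨h.conj d hd g, ?_⟩
    calc g * d * g⁻¹ * (g * x * g⁻¹) = g * (d * x) * g⁻¹ := by group
      _ = g * (x * d) * g⁻¹ := by rw [hdx]
      _ = _ := by group
  have h2 : g⁻¹ * y * g⁻¹⁻¹ = x := by rw [← hg]; group
  exact ⟨fun d => ⟨g * d * g⁻¹, h1 g x y hg d d.2⟩, fun d => ⟨g⁻¹ * d * g⁻¹⁻¹, h1 _ _ _ h2 d d.2⟩,
    fun d => Subtype.ext (by simp only; group), fun d => Subtype.ext (by simp only; group)⟩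

theorem comm_cl (h : Cliq p D) {x a b : G} (hx : x ∈ D) (ha : a ∈ cl D x) (hb : b ∈ cl D x) :
    a * b = b * a := h.trans a ha.1 x hx b hb.1 ha.2 hb.2.symm

theorem card_cl_pow [Finite G] (h : Cliq p D) {x : G} (hx : x ∈ D) :
    ∃ k, Nat.card (cl D x) + 1 = 2 ^ k := by
  classical
  let A : Subgroup G :=
    { carrier := insert 1 (cl D x)
      one_mem' := Set.mem_insert _ _
      mul_mem' := by
        rintro a b ha hb
        rcases ha with rfl | ha
        · rw [one_mul]; exact hb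
        rcases hb with rfl | hb
        · rw [mul_one]; exact Or.inr ha
        by_cases hab : a = b
        · left
          rw [hab]; exact h.sq b hb.1
        · right
          refine ⟨h.closed a ha.1 b hb.1 (h.comm_cl hx ha hb) hab, ?_⟩
          rw [mul_assoc, hb.2, ← mul_assoc, ha.2, mul_assoc]
      inv_mem' := by
        rintro a ha
        rcases ha with rfl | ha
        · rw [inv_one]; exact Or.inl rfl
        · rw [h.inv ha.1]; exact Or.inr ha }
  have hA : IsPGroup 2 A := by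
    rintro ⟨a, ha⟩
    refine ⟨1, Subtype.ext ?_⟩
    change a ^ 2 ^ 1 = 1
    rw [pow_one, pow_two]
    rcases ha with rfl | ha
    · simp
    · exact h.sq a ha.1
  obtain ⟨k, hk⟩ := IsPGroup.iff_card.1 hA
  refine ⟨k, ?_⟩
  rw [← hk]
  have h1 : (1 : G) ∉ cl D x := fun h' => h.ne 1 h'.1 rfl
  have h2 : Nat.card A = (insert (1 : G) (cl D x)).ncard := rfl
  rw [h2, Set.ncard_insert_of_notMem h1 (Set.toFinite _)]
  rfl

theorem three_le_card_cl [Finite G] (h : Cliq p D) {x : G} (hx : x ∈ D) :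
    3 ≤ Nat.card (cl D x) := by
  obtain ⟨a, ha, b, hb, hab, hne⟩ := h.exc
  rw [h.card_cl hx ha]
  have h1 : ({a, b, a * b} : Set G) ⊆ cl D a := by
    rintro c (rfl | rfl | rfl)
    · exact ⟨ha, rfl⟩
    · exact ⟨hb, hab.symm⟩
    · refine ⟨h.closed a ha b hb hab hne, ?_⟩
      rw [mul_assoc, ← hab]
  have h2 : ({a, b, a * b} : Set G).ncard = 3 := by
    rw [Set.ncard_eq_three]
    refine ⟨a, b, a * b, hne, ?_, ?_, rfl⟩
    · intro h3
      exact h.ne b hb (by simpa using h3.symm)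
    · intro h3
      exact h.ne a ha (by simpa using h3.symm)
  rw [← h2]
  exact Set.ncard_le_ncard h1 (Set.toFinite _)

/-- elements mapping one clique to another -/
def W (h : Cliq p D) (α β : h.Om) : Set G := {w | w ∈ D ∧ h.act w α = β}

/-- the swapping element is unique -/
theorem uniq (h : Cliq p D) {x y w w' : G} (hx : x ∈ D) (hy : y ∈ D) (hxy : x * y ≠ y * x)
    (hw : w ∈ D) (hw' : w' ∈ D) (h1 : w * x * w = y) (h2 : w' * x * w' = y) : w = w' := by
  -- the reflection `v` in `⟨x, y⟩`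
  obtain ⟨k, hk⟩ := h.odd
  have hp1 : (y * x) ^ p = 1 := h.pow_eq_one hy hx (fun e => hxy e.symm)
  have hxx := h.sq x hx
  have hyy := h.sq y hy
  have hxi := h.inv hx
  have hyi := h.inv hy
  obtain ⟨v, hv⟩ : ∃ v, v = (y * x) ^ (k + 1) * x := ⟨_, rfl⟩
  have hvD : v ∈ D := by rw [hv]; exact h.refl_mem hx hy _
  have hxpow : ∀ j : ℕ, x * (y * x) ^ j = ((y * x) ^ j)⁻¹ * x := by
    intro j
    induction j with
    | zero => simp
    | succ j ih =>
      have e1 : x * (y * x) ^ (j + 1) = (x * (y * x) ^ j) * (y * x) := by rw [pow_succ]; group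
      rw [e1, ih, pow_succ', mul_inv_rev, mul_inv_rev, hxi, hyi]
      calc ((y * x) ^ j)⁻¹ * x * (y * x) = ((y * x) ^ j)⁻¹ * (x * y * x) := by group
        _ = _ := by group
  have hv2 : v * x * v = y := by
    rw [hv]
    calc (y * x) ^ (k + 1) * x * x * ((y * x) ^ (k + 1) * x) =
        (y * x) ^ (k + 1) * (x * x) * (y * x) ^ (k + 1) * x := by group
      _ = (y * x) ^ (k + 1 + (k + 1)) * x := by rw [hxx, mul_one, ← pow_add]
      _ = (y * x) ^ (p + 1) * x := by congr 2; omega
      _ = y := by rw [pow_succ, hp1, one_mul, mul_assoc, hxx, mul_one]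
  -- each swapping element equals `v`
  have key : ∀ w ∈ D, w * x * w = y → w = v := by
    intro w hw h1
    have hww := h.sq w hw
    have hwi := h.inv hw
    have hwy : w * y * w = x := by
      rw [← h1]
      calc w * (w * x * w) * w = (w * w) * x * (w * w) := by group
        _ = x := by rw [hww, one_mul, mul_one]
    have hwv : w * v * w = v := by
      have e1 : w * (y * x) * w⁻¹ = (y * x)⁻¹ := by
        rw [mul_inv_rev, hxi, hyi, hwi]
        calc w * (y * x) * w = (w * y * (w * w) * x * w) := by rw [hww]; group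
          _ = (w * y * w) * (w * x * w) := by group
          _ = x * y := by rw [hwy, h1]
      have e2 : w * (y * x) ^ (k + 1) * w⁻¹ = ((y * x) ^ (k + 1))⁻¹ := by
        rw [← conj_pow, e1, inv_pow]
      have e3 : (y * x) ^ (k + 1) * (y * x) ^ (k + 1) = y * x := by
        rw [← pow_add, show k + 1 + (k + 1) = p + 1 by omega, pow_succ, hp1, one_mul]
      calc w * v * w = (w * (y * x) ^ (k + 1) * w⁻¹) * (w * x * w) := by
            rw [hv, hwi]
            calc w * ((y * x) ^ (k + 1) * x) * w =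
                w * (y * x) ^ (k + 1) * (1 : G) * x * w := by group
              _ = _ := by rw [← hww]; group
        _ = ((y * x) ^ (k + 1))⁻¹ * y := by rw [e2, h1]
        _ = ((y * x) ^ (k + 1))⁻¹ * ((y * x) * x) := by rw [mul_assoc y, hxx, mul_one]
        _ = ((y * x) ^ (k + 1))⁻¹ * (((y * x) ^ (k + 1) * (y * x) ^ (k + 1)) * x) := by rw [e3]
        _ = v := by rw [hv]; group
    by_contra hne
    have hcomm : w * v = v * w := by
      calc w * v = w * v * (w * w) := by rw [hww, mul_one]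
        _ = (w * v * w) * w := by group
        _ = v * w := by rw [hwv]
    have hwvD := h.closed w hw v hvD hcomm hne
    have hvv := h.sq v hvD
    have e1 : (w * v) * x = x * (w * v) := by
      calc (w * v) * x = (w * v) * x * (v * v) * (w * w) * 1 := by rw [hvv, hww]; group
        _ = w * (v * x * v) * (v * w) * w := by group
        _ = w * (v * x * v) * (w * v) * w := by rw [hcomm]
        _ = (w * y * w) * (v * w) := by rw [hv2]; group
        _ = x * (w * v) := by rw [hwy, hcomm]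
    have hvy : v * y * v = x := by
      rw [← hv2]
      calc v * (v * x * v) * v = (v * v) * x * (v * v) := by group
        _ = x := by rw [hvv, one_mul, mul_one]
    have e2 : (w * v) * y = y * (w * v) := by
      calc (w * v) * y = (w * v) * y * (v * v) * (w * w) * 1 := by rw [hvv, hww]; group
        _ = w * (v * y * v) * (v * w) * w := by group
        _ = w * (v * y * v) * (w * v) * w := by rw [hcomm]
        _ = (w * x * w) * (v * w) := by rw [hvy]; group
        _ = y * (w * v) := by rw [h1, hcomm]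
    exact hxy (h.trans x hx _ hwvD y hy e1.symm e2)
  rw [key w hw h1, key w' hw' h2]

theorem exists_swap (h : Cliq p D) {x y : G} (hx : x ∈ D) (hy : y ∈ D) (hxy : x * y ≠ y * x) :
    ∃ w ∈ D, w * x * w = y := by
  obtain ⟨k, hk⟩ := h.odd
  have hp1 : (y * x) ^ p = 1 := h.pow_eq_one hy hx (fun e => hxy e.symm)
  have hxx := h.sq x hx
  refine ⟨(y * x) ^ (k + 1) * x, h.refl_mem hx hy _, ?_⟩
  calc (y * x) ^ (k + 1) * x * x * ((y * x) ^ (k + 1) * x) =
      (y * x) ^ (k + 1) * (x * x) * (y * x) ^ (k + 1) * x := by group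
    _ = (y * x) ^ (k + 1 + (k + 1)) * x := by rw [hxx, mul_one, ← pow_add]
    _ = (y * x) ^ (p + 1) * x := by congr 2; omega
    _ = y := by rw [pow_succ, hp1, one_mul, mul_assoc, hxx, mul_one]

end Cliq

end Cfsg.Agent.RankThree
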