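import Mathlib
import Cfsg.Agent.RankThree.Clique

/-!
The clique lemma: counting.
-/

set_option autoImplicit false

namespace Cfsg.Agent.RankThree

variable {G : Type*} [Group G]

namespace Cliq

variable {p : ℕ} {D : Set G}

theorem W_symm (h : Cliq p D) {α β : h.Om} {w : G} (hw : w ∈ h.W α β) : w ∈ h.W β α :=
  ⟨hw.1, by rw [← hw.2, h.act_act hw.1]⟩

theorem cq_eq_of_act (h : Cliq p D) {w x : G} (hw : w ∈ D) (hx : x ∈ D) {β : h.Om}
    (hne : h.cq hx ≠ β) (hwβ : h.act w (h.cq hx) = β) : w * x ≠ x * w := by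
  intro h1
  apply hne
  rw [← hwβ, (h.act_fix hw hx).2 h1]

theorem card_W (h : Cliq p D) {α : h.Om} {y : G} (hy : y ∈ D) (hne : α ≠ h.cq hy) :
    Nat.card (h.W α (h.cq hy)) = Nat.card (cl D y) := by
  obtain ⟨x, hx, rfl⟩ := h.exists_rep α
  have hxy : x * y ≠ y * x := fun e => hne ((h.cq_eq hx hy).2 e)
  have hf : ∀ w ∈ h.W (h.cq hx) (h.cq hy), w * x * w ∈ cl D y := by
    rintro w ⟨hw, hw2⟩
    refine ⟨h.conj' hx hw, ?_⟩
    rw [act_cq, cq_eq, h.inv hw] at hw2
    exact hw2
  apply Nat.card_congr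
  refine Equiv.ofBijective (fun w => ⟨w * x * w, hf w w.2⟩) ⟨?_, ?_⟩
  · rintro ⟨w, hw⟩ ⟨w', hw'⟩ he
    have he' : w * x * w = w' * x * w' := congrArg Subtype.val he
    have h1 := hf w hw
    have h2 : x * (w * x * w) ≠ (w * x * w) * x := by
      intro h3
      exact hxy (h.trans x hx _ h1.1 y hy h3 h1.2)
    exact Subtype.ext (h.uniq hx h1.1 h2 hw.1 hw'.1 rfl he'.symm)
  · rintro ⟨y', hy'⟩
    have h2 : x * y' ≠ y' * x := by
      intro h3
      exact hxy (h.trans x hx _ hy'.1 y hy h3 hy'.2)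
    obtain ⟨w, hw, hw'⟩ := h.exists_swap hx hy'.1 h2
    refine ⟨⟨w, hw, ?_⟩, Subtype.ext hw'⟩
    rw [act_cq, cq_eq, h.inv hw, hw']
    exact hy'.2

theorem W_conj (h : Cliq p D) {α β : h.Om} {v w : G} (hw : w ∈ h.W α β) (hv : v ∈ h.W α β) :
    v * w * v⁻¹ ∈ h.W α β := by
  refine ⟨h.conj w hw.1 v, ?_⟩
  rw [act_mul, act_mul, h.inv hv.1, hv.2, (h.W_symm hw).2, hv.2]

theorem W_pow (h : Cliq p D) {α β : h.Om} (hne : α ≠ β) {v w : G} (hw : w ∈ h.W α β)
    (hv : v ∈ h.W α β) : (w * v) ^ p = 1 := by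
  rcases h.prod w hw.1 v hv.1 with hc | hc
  · by_cases hwv : w = v
    · rw [hwv, h.sq v hv.1, one_pow]
    · exfalso
      apply hne
      have hD := h.closed w hw.1 v hv.1 hc hwv
      obtain ⟨x, hx, rfl⟩ := h.exists_rep α
      obtain ⟨y, hy, rfl⟩ := h.exists_rep β
      have h1 : h.act (w * v) (h.cq hx) = h.cq hx := by
        rw [act_mul, hv.2, (h.W_symm hw).2]
      have h2 : h.act (w * v) (h.cq hy) = h.cq hy := by
        rw [act_mul, (h.W_symm hv).2, hw.2]
      rw [act_fix _ hD hx] at h1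
      rw [act_fix _ hD hy] at h2
      rw [cq_eq]
      exact h.trans x hx _ hD y hy h1.symm h2
  · exact hc

theorem orderOf_eq_two (h : Cliq p D) {d : G} (hd : d ∈ D) : orderOf d = 2 :=
  orderOf_eq_prime (by rw [pow_two]; exact h.sq d hd) (h.ne d hd)

theorem card_cl_eq [Finite G] (h : Cliq p D) {x : G} (hx : x ∈ D) : Nat.card (cl D x) = p := by
  obtain ⟨a, ha, b, hb, hab⟩ := h.exn
  rw [h.card_cl hx hb]
  have hne : h.cq ha ≠ h.cq hb := fun e => hab ((h.cq_eq ha hb).1 e)
  have h3 := h.three_le_card_cl hb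
  obtain ⟨k, hk⟩ := h.card_cl_pow hb
  have hcard := h.card_W hb hne
  obtain ⟨e, he⟩ := card_pow h.prime h.two (W := h.W (h.cq ha) (h.cq hb))
    (by
      obtain ⟨w, hw, hw'⟩ := h.exists_swap ha hb hab
      refine ⟨w, hw, ?_⟩
      rw [act_cq, cq_eq, h.inv hw, hw'])
    (fun w hw => h.orderOf_eq_two hw.1) (fun w hw v hv => h.W_conj hw hv)
    (fun w hw v hv => h.W_pow hne hw hv)
  rw [hcard] at he
  rw [he] at hk h3 ⊢
  have hk2 : 2 ≤ k := by
    by_contra hlt
    have : k = 0 ∨ k = 1 := by omega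
    rcases this with rfl | rfl <;> omega
  rw [arith_aux h.prime h.two hk hk2, pow_one]

theorem card_W_eq [Finite G] (h : Cliq p D) {α β : h.Om} (hne : α ≠ β) :
    Nat.card (h.W α β) = p := by
  obtain ⟨y, hy, rfl⟩ := h.exists_rep β
  rw [h.card_W hy hne, h.card_cl_eq hy]

theorem reg (h : Cliq p D) {α β : h.Om} (hne : α ≠ β) {w w' x : G} (hw : w ∈ h.W α β)
    (hw' : w' ∈ h.W α β) (hx : x ∈ D) (hxα : h.cq hx = α) (hc : (w * w') * x = x * (w * w')) :
    w = w' := by
  subst hxα
  have hww := h.sq w hw.1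
  have hww' := h.sq w' hw'.1
  have h1 : w' * x ≠ x * w' := h.cq_eq_of_act hw'.1 hx hne hw'.2
  have h2 : (w' * x * w') * x ≠ x * (w' * x * w') :=
    fun e => h1 (h.commute_of_conj h.odd hw'.1 hx e)
  refine h.uniq (h.conj' hx hw'.1) hx h2 hw.1 hw'.1 ?_ ?_
  · calc w * (w' * x * w') * w = ((w * w') * x) * (w' * w) := by group
      _ = x * (w * (w' * w') * w) := by rw [hc]; group
      _ = x := by rw [hww', mul_one, hww, mul_one]
  · calc w' * (w' * x * w') * w' = (w' * w') * x * (w' * w') := by group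
      _ = x := by rw [hww', one_mul, mul_one]

/-- the number of fixed cliques of an element of order `p` -/
theorem card_fix [Finite G] (h : Cliq p D) {g : G} (hg : g ^ p = 1) :
    Nat.card h.Om ≡ Nat.card {α : h.Om // h.act g α = α} [MOD p] := by
  classical
  have : Fact p.Prime := ⟨h.prime⟩
  have := Fintype.ofFinite h.Om
  let f : Function.End h.Om := h.act g
  have hfk : ∀ k : ℕ, ∀ α : h.Om, (f ^ k) α = h.act (g ^ k) α := by
    intro k
    induction k with
    | zero =>
      intro α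
      rw [pow_zero, pow_zero, act_one]
      rfl
    | succ k ih =>
      intro α
      rw [pow_succ, pow_succ, act_mul]
      change (f ^ k) (f α) = _
      rw [ih]
  have hf : f ^ p ^ 1 = 1 := by
    funext α
    rw [hfk, pow_one, hg, act_one]
    rfl
  have h1 := Equiv.Perm.card_fixedPoints_modEq hf
  rw [← Nat.card_eq_fintype_card, ← Nat.card_eq_fintype_card] at h1
  exact h1

theorem card_D [Finite G] (h : Cliq p D) : Nat.card D = Nat.card h.Om * p := by
  classical
  have := Fintype.ofFinite h.Om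
  have := Fintype.ofFinite G
  have h1 : (Finset.univ : Finset D).card = ∑ α : h.Om, (Finset.univ.filter
      (fun x : D => h.cq x.2 = α)).card :=
    Finset.card_eq_sum_card_fiberwise (fun x _ => Finset.mem_univ _)
  have h2 : ∀ α : h.Om, (Finset.univ.filter (fun x : D => h.cq x.2 = α)).card = p := by
    intro α
    obtain ⟨y, hy, rfl⟩ := h.exists_rep α
    refine Eq.trans ?_ (h.card_cl_eq hy)
    rw [← Fintype.card_subtype, ← Nat.card_eq_fintype_card]
    apply Nat.card_congr
    exact ⟨fun x => ⟨x.1, x.1.2, (h.cq_eq x.1.2 hy).1 x.2⟩,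
      fun x => ⟨⟨x.1, x.2.1⟩, (h.cq_eq x.2.1 hy).2 x.2.2⟩, fun x => rfl, fun x => rfl⟩
  rw [Finset.sum_congr rfl (fun α _ => h2 α)] at h1
  rw [Finset.card_univ, Finset.sum_const, Finset.card_univ, smul_eq_mul] at h1
  rw [Nat.card_eq_fintype_card, Nat.card_eq_fintype_card, h1]

/-- `p` divides the number of cliques -/
theorem dvd_card_Om [Finite G] (h : Cliq p D) : p ∣ Nat.card h.Om := by
  classical
  by_contra hnd
  have hfG := Fintype.ofFinite G
  have hfO := Fintype.ofFinite h.Om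
  obtain ⟨w, hw, v, hv, hwv⟩ := h.exn
  have hp1 := h.prime.one_lt
  -- every product has a fixed clique
  have hfix : ∀ w' ∈ D, w * w' ≠ w' * w → ∃ α : h.Om, h.act w' α = h.act w α := by
    intro w' hw' hne
    have h1 := h.card_fix (h.pow_eq_one hw hw' hne)
    have h2 : Nat.card {α : h.Om // h.act (w * w') α = α} ≠ 0 := by
      intro h0
      rw [h0] at h1
      exact hnd ((Nat.modEq_zero_iff_dvd).1 h1)
    rw [Nat.card_ne_zero] at h2
    obtain ⟨⟨⟨α, hα⟩⟩, -⟩ := h2
    refine ⟨α, ?_⟩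
    rw [act_mul] at hα
    have := congrArg (h.act w) hα
    rw [h.act_act hw] at this
    exact this
  let T : Finset G := Finset.univ.filter (fun x => x ∈ D ∧ w * x ≠ x * w)
  let U : h.Om → Finset G := fun α =>
    (Finset.univ.filter (fun x => x ∈ h.W α (h.act w α))).erase w
  have hU : ∀ α ∈ Finset.univ.erase (h.cq hw), (U α).card ≤ p - 1 := by
    intro α hα
    rw [Finset.mem_erase] at hα
    have hne : α ≠ h.act w α := by
      intro e
      obtain ⟨x, hx, rfl⟩ := h.exists_rep α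
      rw [eq_comm, act_fix _ hw hx] at e
      exact hα.1 ((h.cq_eq hx hw).2 e.symm)
    have h1 : (Finset.univ.filter (fun x => x ∈ h.W α (h.act w α))).card = p := by
      refine Eq.trans ?_ (h.card_W_eq hne)
      rw [← Fintype.card_subtype, ← Nat.card_eq_fintype_card]
    have h2 : w ∈ Finset.univ.filter (fun x => x ∈ h.W α (h.act w α)) := by
      rw [Finset.mem_filter]
      exact ⟨Finset.mem_univ _, hw, rfl⟩
    rw [Finset.card_erase_of_mem h2, h1]
  have hTU : T ⊆ (Finset.univ.erase (h.cq hw)).biUnion U := by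
    intro w' hw'
    rw [Finset.mem_filter] at hw'
    obtain ⟨-, hw'D, hne⟩ := hw'
    obtain ⟨α, hα⟩ := hfix w' hw'D hne
    rw [Finset.mem_biUnion]
    refine ⟨α, ?_, ?_⟩
    · rw [Finset.mem_erase]
      refine ⟨?_, Finset.mem_univ _⟩
      rintro rfl
      rw [(h.act_fix hw hw).2 rfl, h.act_fix hw'D hw] at hα
      exact hne hα.symm
    · rw [Finset.mem_erase, Finset.mem_filter]
      refine ⟨?_, Finset.mem_univ _, hw'D, hα⟩
      rintro rfl
      exact hne rfl
  have h1 : T.card ≤ (Nat.card h.Om - 1) * (p - 1) := by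
    refine (Finset.card_le_card hTU).trans ?_
    have := Finset.card_biUnion_le_card_mul _ U (p - 1) hU
    rwa [Finset.card_erase_of_mem (Finset.mem_univ _), Finset.card_univ,
      ← Nat.card_eq_fintype_card] at this
  have h2 : T.card + p = Nat.card h.Om * p := by
    rw [← h.card_D]
    have e1 : Nat.card D = (Finset.univ.filter (fun x => x ∈ D)).card := by
      rw [Nat.card_eq_fintype_card, ← Fintype.card_subtype]
    have e2 : (Finset.univ.filter (fun x => x ∈ D ∧ ¬ w * x ≠ x * w)).card = p := by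
      refine Eq.trans ?_ (h.card_cl_eq hw)
      rw [← Fintype.card_subtype, ← Nat.card_eq_fintype_card]
      apply Nat.card_congr
      exact ⟨fun x => ⟨x.1, x.2.1, (not_not.1 x.2.2).symm⟩,
        fun x => ⟨x.1, x.2.1, not_not.2 x.2.2.symm⟩, fun x => rfl, fun x => rfl⟩
    rw [e1, ← e2]
    have e3 := Finset.card_filter_add_card_filter_not (s := Finset.univ.filter (fun x => x ∈ D))
      (fun x => w * x ≠ x * w)
    rw [Finset.filter_filter, Finset.filter_filter] at e3
    exact e3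
  have h3 : 2 ≤ Nat.card h.Om := by
    by_contra hlt
    have h4 : Nat.card h.Om ≤ 1 := by omega
    have h5 : Subsingleton h.Om := (Finite.card_le_one_iff_subsingleton).1 h4
    exact hwv ((h.cq_eq hw hv).1 (Subsingleton.elim _ _))
  obtain ⟨m, hm⟩ : ∃ m, Nat.card h.Om = m + 2 := ⟨Nat.card h.Om - 2, by omega⟩
  obtain ⟨q, hq⟩ : ∃ q, p = q + 2 := ⟨p - 2, by omega⟩
  rw [hm] at h1 h2
  have h6 : m + 2 - 1 = m + 1 := by omega
  have h7 : p - 1 = q + 1 := by omega
  rw [h6, h7] at h1
  rw [hq] at h2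
  nlinarith

/-- powers of a product of two elements of `W` -/
theorem pow_mul_mem_W (h : Cliq p D) {α β : h.Om} {w v : G} (hw : w ∈ h.W α β)
    (hv : v ∈ h.W α β) (i : ℕ) : (v * w) ^ i * w ∈ h.W α β := by
  refine ⟨h.refl_mem hw.1 hv.1 i, ?_⟩
  have h1 : ∀ i : ℕ, h.act ((v * w) ^ i) β = β := by
    intro i
    induction i with
    | zero => rw [pow_zero, act_one]
    | succ i ih => rw [pow_succ, act_mul, act_mul, (h.W_symm hw).2, hv.2, ih]
  rw [act_mul, hw.2, h1]

/-- all elements of `W` are of the form `(v w)^i w` -/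
theorem mem_W_iff [Finite G] (h : Cliq p D) {α β : h.Om} (hne : α ≠ β) {w v u : G}
    (hw : w ∈ h.W α β) (hv : v ∈ h.W α β) (hwv : v ≠ w) (hu : u ∈ h.W α β) :
    ∃ i : ℕ, u = (v * w) ^ i * w := by
  classical
  have hr : (v * w) ^ p = 1 := h.W_pow hne hv hw
  have hr1 : v * w ≠ 1 := by
    intro e
    apply hwv
    have := eq_inv_of_mul_eq_one_left e
    rw [this, h.inv hw.1]
  have hord : orderOf (v * w) = p := by
    have := Fact.mk h.prime
    exact orderOf_eq_prime hr hr1
  let f : Fin p → h.W α β := fun i => ⟨(v * w) ^ (i : ℕ) * w, h.pow_mul_mem_W hw hv i⟩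
  have hinj : Function.Injective f := by
    intro i j hij
    have h1 : (v * w) ^ (i : ℕ) * w = (v * w) ^ (j : ℕ) * w := congrArg Subtype.val hij
    have h2 := mul_right_cancel h1
    apply Fin.ext
    apply pow_injOn_Iio_orderOf _ _ h2
    · rw [hord]; exact i.2
    · rw [hord]; exact j.2
  have hbij : Function.Bijective f := by
    rw [Nat.bijective_iff_injective_and_card]
    refine ⟨hinj, ?_⟩
    rw [h.card_W_eq hne, Nat.card_eq_fintype_card, Fintype.card_fin]
  obtain ⟨i, hi⟩ := hbij.2 ⟨u, hu⟩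
  exact ⟨i, (congrArg Subtype.val hi).symm⟩

/-- an element of order `p` fixing two cliques and commuting with an element of `W` is trivial -/
theorem eq_one_of_commute [Finite G] (h : Cliq p D) {α β : h.Om} (hne : α ≠ β) {g w : G}
    (hg : g ^ p = 1) (hgα : h.act g α = α) (hgβ : h.act g β = β) (hw : w ∈ h.W α β)
    (hgw : g * w = w * g) : g = 1 := by
  have hgW : ∀ s ∈ h.W α β, g * s * g⁻¹ ∈ h.W α β := by
    intro s hs
    refine ⟨h.conj s hs.1 g, ?_⟩
    have h1 : h.act g⁻¹ α = α := by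
      have := congrArg (h.act g⁻¹) hgα
      rw [← act_mul, inv_mul_cancel, act_one] at this
      exact this.symm
    rw [act_mul, act_mul, h1, hs.2, hgβ]
  have hall := fix_all h.prime (h.card_W_eq hne) hg hgW hw hgw
  -- a second element of `W`
  obtain ⟨v, hv, hvw⟩ : ∃ v ∈ h.W α β, v ≠ w := by
    by_contra hno
    push Not at hno
    have h1 : h.W α β = {w} := by
      ext x
      constructor
      · intro hx; exact hno x hx
      · rintro rfl; exact hw
    have h2 := h.card_W_eq hne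
    rw [h1] at h2
    have h3 : Nat.card ({w} : Set G) = 1 := by simp
    rw [h3] at h2
    exact h.prime.one_lt.ne h2
  have hwv : w * v ≠ v * w := by
    intro e
    apply hvw
    have h1 := h.W_pow hne hw hv
    have h2 : (w * v) ^ 4 = 1 := by
      have h3 : (w * v) ^ 4 = (w * v) * (w * v) * ((w * v) * (w * v)) := by
        simp only [pow_succ, pow_zero, one_mul, mul_assoc]
      have h4 : (w * v) * (w * v) = 1 := by
        nth_rewrite 2 [e]
        calc w * v * (v * w) = w * (v * v) * w := by group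
          _ = 1 := by rw [h.sq v hv.1, mul_one, h.sq w hw.1]
      rw [h3, h4, one_mul]
    have h3 := odd_pow_aux h.odd h1 h2
    have := eq_inv_of_mul_eq_one_right h3
    rw [this, h.inv hw.1]
  have hcl : ∀ u ∈ h.W α β, ∀ d ∈ D, d * u = u * d → g * d = d * g := by
    intro u hu d hd hdu
    refine fix_all h.prime (h.card_cl_eq hu.1) hg (S := cl D u) ?_ (s := u) ⟨hu.1, rfl⟩
      (hall u hu) d ⟨hd, hdu⟩
    rintro s ⟨hs, hsu⟩
    refine ⟨h.conj s hs g, ?_⟩
    have h1 := hall u hu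
    have h2 : g * u * g⁻¹ = u := by rw [h1, mul_assoc, mul_inv_cancel, mul_one]
    calc g * s * g⁻¹ * u = g * s * g⁻¹ * (g * u * g⁻¹) := by rw [h2]
      _ = g * (s * u) * g⁻¹ := by group
      _ = g * (u * s) * g⁻¹ := by rw [hsu]
      _ = (g * u * g⁻¹) * (g * s * g⁻¹) := by group
      _ = u * (g * s * g⁻¹) := by rw [h2]
  exact h.cent w hw.1 v hv.1 hwv g (hcl w hw) (hcl v hv)

/-- an element of order `p` fixing two cliques is a product of two elements of `W` -/
theorem exists_prod [Finite G] (h : Cliq p D) {α β : h.Om} (hne : α ≠ β) {g : G}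
    (hg : g ^ p = 1) (hgα : h.act g α = α) (hgβ : h.act g β = β) :
    ∃ w ∈ h.W α β, ∃ v ∈ h.W α β, g = w * v := by
  have hgi : h.act g⁻¹ α = α := by
    have := congrArg (h.act g⁻¹) hgα
    rw [← act_mul, inv_mul_cancel, act_one] at this
    exact this.symm
  have hgW : ∀ s ∈ h.W α β, g * s * g⁻¹ ∈ h.W α β := by
    intro s hs
    refine ⟨h.conj s hs.1 g, ?_⟩
    rw [act_mul, act_mul, hgi, hs.2, hgβ]
  obtain ⟨w, hw⟩ : ∃ w, w ∈ h.W α β := by
    have h1 := h.card_W_eq hne
    have h2 : Nat.card (h.W α β) ≠ 0 := by rw [h1]; exact h.prime.ne_zero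
    rw [Nat.card_ne_zero] at h2
    obtain ⟨⟨w, hw⟩⟩ := h2.1
    exact ⟨w, hw⟩
  by_cases hgw : g * w = w * g
  · have := h.eq_one_of_commute hne hg hgα hgβ hw hgw
    exact ⟨w, hw, w, hw, by rw [this, h.sq w hw.1]⟩
  obtain ⟨v, hv⟩ : ∃ v, v = g * w * g⁻¹ := ⟨_, rfl⟩
  have hvW : v ∈ h.W α β := by rw [hv]; exact hgW w hw
  have hvw : v ≠ w := by
    intro e
    apply hgw
    rw [hv, mul_inv_eq_iff_eq_mul] at e
    exact e
  have hr : (v * w) ^ p = 1 := h.W_pow hne hvW hw
  have hr1 : v * w ≠ 1 := by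
    intro e
    apply hvw
    have := eq_inv_of_mul_eq_one_left e
    rw [this, h.inv hw.1]
  have hord : orderOf (v * w) = p := by
    have := Fact.mk h.prime
    exact orderOf_eq_prime hr hr1
  -- `g` commutes with `r = v w`
  have hgr : g * (v * w) = (v * w) * g := by
    have h1 : g * v * g⁻¹ ∈ h.W α β := hgW v hvW
    obtain ⟨i, hi⟩ := h.mem_W_iff hne hw hvW hvw h1
    -- `g r g⁻¹ = r^i * r⁻¹`
    have hvv := h.sq v hvW.1
    have hww := h.sq w hw.1
    have h2 : g * (v * w) * g⁻¹ = (v * w) ^ i * (v * w)⁻¹ := by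
      calc g * (v * w) * g⁻¹ = (g * v * g⁻¹) * (g * w * g⁻¹) := by group
        _ = (v * w) ^ i * (w * v) := by rw [hi, ← hv]; group
        _ = _ := by rw [mul_inv_rev, h.inv hw.1, h.inv hvW.1]
    obtain ⟨j, hj⟩ : ∃ j : ℕ, g * (v * w) * g⁻¹ = (v * w) ^ j := by
      refine ⟨i + (p - 1), ?_⟩
      rw [h2, pow_add]
      congr 1
      rw [inv_eq_iff_mul_eq_one, ← pow_succ']
      rw [Nat.sub_add_cancel h.prime.one_lt.le, hr]
    -- iterate
    have h3 : ∀ k : ℕ, g ^ k * (v * w) * (g ^ k)⁻¹ = (v * w) ^ (j ^ k) := by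
      intro k
      induction k with
      | zero => simp
      | succ k ih =>
        have : g ^ (k + 1) * (v * w) * (g ^ (k + 1))⁻¹ =
            g ^ k * (g * (v * w) * g⁻¹) * (g ^ k)⁻¹ := by rw [pow_succ]; group
        rw [this, hj, ← conj_pow, ih, ← pow_mul, pow_succ]
    have h4 := h3 p
    rw [hg, one_mul, inv_one, mul_one] at h4
    have h5 : 1 ≡ j ^ p [MOD p] := by
      have : (v * w) ^ 1 = (v * w) ^ (j ^ p) := by rw [pow_one]; exact h4
      rw [pow_eq_pow_iff_modEq, hord] at this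
      exact this
    have h6 : (j ^ p : ℕ) ≡ j [MOD p] := by
      have := Fact.mk h.prime
      rw [← ZMod.natCast_eq_natCast_iff]
      push_cast
      exact ZMod.pow_card _
    have h7 : (v * w) ^ j = v * w := by
      have : (v * w) ^ j = (v * w) ^ 1 := by
        rw [pow_eq_pow_iff_modEq, hord]
        exact (h5.trans h6).symm
      rw [this, pow_one]
    rw [h7, mul_inv_eq_iff_eq_mul] at hj
    exact hj
  -- `ρ = r^((p+1)/2)` maps `w` to `v`
  obtain ⟨ρ, hρ⟩ : ∃ ρ, ρ = (v * w) ^ ((p + 1) / 2) := ⟨_, rfl⟩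
  have hρw : ρ * w * ρ⁻¹ = v := by
    rw [hρ]; exact conj_of_pow (h.sq w hw.1) (h.sq v hvW.1) h.odd hr
  have hρg : Commute ρ g := by
    rw [hρ]
    exact (Commute.pow_left (show Commute (v * w) g from hgr.symm) _)
  have hρp : ρ ^ p = 1 := by rw [hρ, ← pow_mul, mul_comm, pow_mul, hr, one_pow]
  have hactr : h.act (v * w) α = α := by rw [act_mul, hw.2, (h.W_symm hvW).2]
  have hactr' : h.act (v * w) β = β := by rw [act_mul, (h.W_symm hw).2, hvW.2]
  have hactpow : ∀ γ : h.Om, h.act (v * w) γ = γ → ∀ k : ℕ, h.act ((v * w) ^ k) γ = γ := by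
    intro γ hγ k
    induction k with
    | zero => rw [pow_zero, act_one]
    | succ k ih => rw [pow_succ, act_mul, hγ, ih]
  have hactinv : ∀ γ : h.Om, ∀ k : G, h.act k γ = γ → h.act k⁻¹ γ = γ := by
    intro γ k hk
    have := congrArg (h.act k⁻¹) hk
    rw [← act_mul, inv_mul_cancel, act_one] at this
    exact this.symm
  have hs1 : (ρ⁻¹ * g) ^ p = 1 := by
    rw [(hρg.inv_left).mul_pow, inv_pow, hρp, hg, inv_one, one_mul]
  have hs2 : ρ⁻¹ * g * w = w * (ρ⁻¹ * g) := by
    have h1 : g * w = v * g := by rw [hv]; group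
    have h2 : ρ⁻¹ * v = w * ρ⁻¹ := by rw [← hρw]; group
    calc ρ⁻¹ * g * w = ρ⁻¹ * (g * w) := by group
      _ = (ρ⁻¹ * v) * g := by rw [h1]; group
      _ = w * (ρ⁻¹ * g) := by rw [h2]; group
  have hs3 := h.eq_one_of_commute hne hs1
    (by rw [act_mul, hgα, hρ]; exact hactinv _ _ (hactpow α hactr _))
    (by rw [act_mul, hgβ, hρ]; exact hactinv _ _ (hactpow β hactr' _)) hw hs2
  have hgρ : g = ρ := by
    have := eq_inv_of_mul_eq_one_right hs3
    rw [this, inv_inv]
  refine ⟨(v * w) ^ ((p + 1) / 2) * w, h.pow_mul_mem_W hw hvW _, w, hw, ?_⟩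
  rw [mul_assoc, h.sq w hw.1, mul_one, ← hρ, hgρ]

theorem dvd_card_fix [Finite G] (h : Cliq p D) {g : G} (hg : g ^ p = 1) :
    p ∣ Nat.card {α : h.Om // h.act g α = α} := by
  have h1 := h.card_fix hg
  have h2 := h.dvd_card_Om
  exact (Nat.modEq_zero_iff_dvd).1 (h1.symm.trans ((Nat.modEq_zero_iff_dvd).2 h2))

/-- **The clique lemma.** -/
theorem false [Finite G] (h : Cliq p D) : False := by
  classical
  obtain ⟨x, hx, y, hy, hxy⟩ := h.exn
  have hαβ : h.cq hx ≠ h.cq hy := fun e => hxy ((h.cq_eq hx hy).1 e)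
  obtain ⟨α, hα⟩ : ∃ α, α = h.cq hx := ⟨_, rfl⟩
  obtain ⟨β, hβ⟩ : ∃ β, β = h.cq hy := ⟨_, rfl⟩
  rw [← hα, ← hβ] at hαβ
  -- two elements of `W α β`
  obtain ⟨w, v, hw, hv, hwv⟩ : ∃ w v, w ∈ h.W α β ∧ v ∈ h.W α β ∧ w ≠ v := by
    have h1 := h.card_W_eq hαβ
    have h2 : 1 < Nat.card (h.W α β) := by rw [h1]; exact h.prime.one_lt
    rw [Finite.one_lt_card_iff_nontrivial] at h2
    obtain ⟨⟨w, hw⟩, ⟨v, hv⟩, hne⟩ := h2
    exact ⟨w, v, hw, hv, fun e => hne (Subtype.ext e)⟩
  obtain ⟨r, hr⟩ : ∃ r, r = w * v := ⟨_, rfl⟩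
  have hrp : r ^ p = 1 := by rw [hr]; exact h.W_pow hαβ hw hv
  have hr1 : r ≠ 1 := by
    intro e
    apply hwv
    rw [hr] at e
    have := eq_inv_of_mul_eq_one_left e
    rw [this, h.inv hv.1]
  have hrα : h.act r α = α := by rw [hr, act_mul, hv.2, (h.W_symm hw).2]
  have hrβ : h.act r β = β := by rw [hr, act_mul, (h.W_symm hv).2, hw.2]
  have hr2 : r * r ≠ 1 := by
    intro e
    apply hr1
    apply odd_pow_aux h.odd hrp
    rw [show (4 : ℕ) = 2 * 2 by norm_num, pow_mul, pow_two r, e, one_pow]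
  -- every `W γ δ` with `γ, δ` fixed by `r` inverts `r`
  have key : ∀ γ δ : h.Om, h.act r γ = γ → h.act r δ = δ → γ ≠ δ →
      (∀ u ∈ h.W γ δ, u * r * u = r⁻¹) ∧
      (∀ d (hd : d ∈ D), h.cq hd = γ → r * d ≠ d * r) := by
    intro γ δ hγ hδ hne
    obtain ⟨a, ha, b, hb, hab⟩ := h.exists_prod hne hrp hγ hδ
    have haa := h.sq a ha.1
    have hbb := h.sq b hb.1
    have hane : a ≠ b := by
      rintro rfl
      rw [haa] at hab
      exact hr1 hab
    constructor
    · intro u hu
      obtain ⟨i, hi⟩ := h.mem_W_iff hne hb ha hane hu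
      have h1 : r⁻¹ = b * a := by rw [hab, mul_inv_rev, h.inv ha.1, h.inv hb.1]
      have huu := h.sq u hu.1
      have h2 : b * r * b = r⁻¹ := by
        rw [h1, hab]
        calc b * (a * b) * b = b * a * (b * b) := by group
          _ = b * a := by rw [hbb, mul_one]
      have h3 : u = r ^ i * b := by rw [hi, hab]
      have h4 : u⁻¹ = u := h.inv hu.1
      calc u * r * u = u * r * u⁻¹ := by rw [h4]
        _ = r ^ i * (b * r * b⁻¹) * (r ^ i)⁻¹ := by rw [h3]; group
        _ = r ^ i * r⁻¹ * (r ^ i)⁻¹ := by rw [h.inv hb.1, h2]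
        _ = r⁻¹ := by group
    · intro d hd hdγ hc
      apply hane
      apply h.reg hne ha hb hd hdγ
      rw [← hab]; exact hc
  have hinvD : ∀ d ∈ D, d * r * d = r⁻¹ → ∀ γ, h.act r γ = γ → h.act r (h.act d γ) = h.act d γ := by
    intro d hd hdr γ hγ
    have h1 : r * d = d * r⁻¹ := by
      rw [← hdr]
      calc r * d = (d * d) * r * d := by rw [h.sq d hd, one_mul]
        _ = d * (d * r * d) := by group
    have h2 : h.act r⁻¹ γ = γ := by
      have := congrArg (h.act r⁻¹) hγ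
      rw [← act_mul, inv_mul_cancel, act_one] at this
      exact this.symm
    rw [← act_mul, h1, act_mul, h2]
  -- an element of `D` commuting with `r` or inverting `r` moves all the fixed cliques
  have hmove : ∀ d (hd : d ∈ D), d * r * d = r⁻¹ → ∀ γ, h.act r γ = γ → h.act d γ ≠ γ := by
    intro d hd hdr γ hγ hdγ
    -- `d ∈ γ`
    obtain ⟨z, hz, hzγ⟩ := h.exists_rep γ
    have h1 : d * z = z * d := by
      rw [← hzγ] at hdγ
      exact (h.act_fix hd hz).1 hdγ
    have h2 : h.act r (h.cq hd) = h.cq hd := by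
      rw [(h.cq_eq hd hz).2 h1, hzγ, hγ]
    rw [act_cq, cq_eq] at h2
    -- `r d r⁻¹ = d r⁻²` commutes with `d`
    have h3 : r * d = d * r⁻¹ := by
      rw [← hdr]
      calc r * d = (d * d) * r * d := by rw [h.sq d hd, one_mul]
        _ = d * (d * r * d) := by group
    have h5 : d * r⁻¹ * r⁻¹ * d = r * r := by
      calc d * r⁻¹ * r⁻¹ * d = (d * r⁻¹) * (r⁻¹ * d) := by group
        _ = (r * d) * (r⁻¹ * d) := by rw [h3]
        _ = r * (d * (r⁻¹) * d) := by group
        _ = r * r := by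
          rw [← h3]
          calc r * (r * d * d) = r * r * (d * d) := by group
            _ = r * r := by rw [h.sq d hd, mul_one]
    have h6 : d * (d * r⁻¹ * r⁻¹) = r⁻¹ * r⁻¹ := by
      calc d * (d * r⁻¹ * r⁻¹) = (d * d) * r⁻¹ * r⁻¹ := by group
        _ = r⁻¹ * r⁻¹ := by rw [h.sq d hd, one_mul]
    rw [h3] at h2
    rw [h5, h6] at h2
    apply hr1
    apply odd_pow_aux h.odd hrp
    calc r ^ 4 = (r * r) * (r * r) := by simp only [pow_succ, pow_zero, one_mul, mul_assoc]
      _ = (r⁻¹ * r⁻¹) * (r * r) := by rw [← h2]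
      _ = 1 := by group
  -- the set `D_R`
  set E : Set G := {d | d ∈ D ∧ d * r * d = r⁻¹} with hE
  have hEW : ∀ δ : h.Om, h.act r δ = δ → α ≠ δ → ∀ u, u ∈ h.W α δ ↔ u ∈ E ∧ h.act u α = δ := by
    intro δ hδ hne u
    constructor
    · intro hu
      exact ⟨⟨hu.1, (key α δ hrα hδ hne).1 u hu⟩, hu.2⟩
    · rintro ⟨hu, hu2⟩
      exact ⟨hu.1, hu2⟩
  have hEconj : ∀ w ∈ E, ∀ v ∈ E, v * w * v⁻¹ ∈ E := by
    rintro w ⟨hw, hwr⟩ v ⟨hv, hvr⟩
    refine ⟨h.conj w hw v, ?_⟩
    rw [h.inv hv]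
    have e1 : v * r⁻¹ * v = r := by
      have := congrArg (fun z => z⁻¹) hvr
      simp only [mul_inv_rev, inv_inv, h.inv hv] at this
      rw [mul_assoc]; exact this
    have e2 : w * r⁻¹ * w = r := by
      have := congrArg (fun z => z⁻¹) hwr
      simp only [mul_inv_rev, inv_inv, h.inv hw] at this
      rw [mul_assoc]; exact this
    calc v * w * v * r * (v * w * v) = v * (w * (v * r * v) * w) * v := by group
      _ = r⁻¹ := by rw [hvr, e2, hvr]
  have hEpow : ∀ w ∈ E, ∀ v ∈ E, (w * v) ^ p = 1 := by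
    rintro w ⟨hw, hwr⟩ v ⟨hv, hvr⟩
    rcases h.prod w hw v hv with hc | hc
    · by_cases hwv : w = v
      · rw [hwv, h.sq v hv, one_pow]
      exfalso
      have hD := h.closed w hw v hv hc hwv
      obtain ⟨e, he⟩ : ∃ e, e = w * v := ⟨_, rfl⟩
      rw [← he] at hD
      have e1 : w * r⁻¹ * w = r := by
        have := congrArg (fun z => z⁻¹) hwr
        simp only [mul_inv_rev, inv_inv, h.inv hw] at this
        rw [mul_assoc]; exact this
      have hee := h.sq e hD
      have her : e * r * e = r := by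
        rw [he]
        calc w * v * r * (w * v) = w * (v * r * (v * w)) := by rw [← hc]; group
          _ = w * (v * r * v) * w := by group
          _ = r := by rw [hvr, e1]
      have her' : r * e = e * r := by
        calc r * e = (e * e) * (r * e) := by rw [hee, one_mul]
          _ = e * (e * r * e) := by group
          _ = e * r := by rw [her]
      -- `e` fixes no fixed clique
      have hact : h.act r (h.act e α) = h.act e α := by
        rw [← act_mul, her', act_mul, hrα]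
      by_cases heα : h.act e α = α
      · have h1 : h.cq hD = α := by
          rw [hα] at heα ⊢
          rw [cq_eq]
          exact (h.act_fix hD hx).1 heα
        exact (key α β hrα hrβ hαβ).2 e hD h1 her'
      · have h1 := (key α _ hrα hact (fun e' => heα e'.symm)).1 e ⟨hD, rfl⟩
        rw [her] at h1
        apply hr2
        nth_rewrite 1 [h1]
        rw [inv_mul_cancel]
    · exact hc
  -- the number of elements of `E`
  have := Fintype.ofFinite h.Om
  have := Fintype.ofFinite G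
  obtain ⟨f, hf⟩ := h.dvd_card_fix hrp
  have hcardE : Nat.card E + p = Nat.card {γ : h.Om // h.act r γ = γ} * p := by
    have h1 : (Finset.univ.filter (fun u => u ∈ E)).card =
        ∑ δ ∈ (Finset.univ.filter (fun δ : h.Om => h.act r δ = δ)).erase α,
          ((Finset.univ.filter (fun u => u ∈ E)).filter (fun u => h.act u α = δ)).card := by
      apply Finset.card_eq_sum_card_fiberwise
      intro u hu
      rw [Finset.mem_coe, Finset.mem_filter] at hu
      rw [Finset.mem_coe, Finset.mem_erase, Finset.mem_filter]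
      exact ⟨hmove u hu.2.1 hu.2.2 α hrα, Finset.mem_univ _, hinvD u hu.2.1 hu.2.2 α hrα⟩
    have h2 : ∀ δ ∈ (Finset.univ.filter (fun δ : h.Om => h.act r δ = δ)).erase α,
        ((Finset.univ.filter (fun u => u ∈ E)).filter (fun u => h.act u α = δ)).card = p := by
      intro δ hδ
      rw [Finset.mem_erase, Finset.mem_filter] at hδ
      refine Eq.trans ?_ (h.card_W_eq (Ne.symm hδ.1))
      rw [Finset.filter_filter, ← Fintype.card_subtype, ← Nat.card_eq_fintype_card]
      apply Nat.card_congr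
      apply Equiv.subtypeEquivRight
      intro u
      exact (hEW δ hδ.2.2 (Ne.symm hδ.1) u).symm
    rw [Finset.sum_congr rfl h2, Finset.sum_const, smul_eq_mul, Finset.card_erase_of_mem
      (by rw [Finset.mem_filter]; exact ⟨Finset.mem_univ _, hrα⟩)] at h1
    have h3 : (Finset.univ.filter (fun u => u ∈ E)).card = Nat.card E := by
      rw [Nat.card_eq_fintype_card, ← Fintype.card_subtype]
    have h4 : (Finset.univ.filter (fun δ : h.Om => h.act r δ = δ)).card =
        Nat.card {γ : h.Om // h.act r γ = γ} := by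
      rw [Nat.card_eq_fintype_card, ← Fintype.card_subtype]
    rw [h3, h4] at h1
    rw [h1]
    have h5 : 1 ≤ Nat.card {γ : h.Om // h.act r γ = γ} := by
      have : Nonempty {γ : h.Om // h.act r γ = γ} := ⟨⟨α, hrα⟩⟩
      exact Nat.card_pos
    obtain ⟨c, hc⟩ := Nat.exists_eq_add_of_le h5
    rw [hc]
    have : 1 + c - 1 = c := by omega
    rw [this]; ring
  have hw' : w ∈ E := ⟨hw.1, (key α β hrα hrβ hαβ).1 w hw⟩
  obtain ⟨e, he⟩ := card_pow h.prime h.two (W := E) ⟨w, hw'⟩
    (fun w hw => h.orderOf_eq_two hw.1) hEconj hEpow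
  rw [he, hf] at hcardE
  have hp3 : 3 ≤ p := by
    have := h.prime.two_le
    have := h.two
    omega
  -- `p ^ e + p = p * f * p`
  rcases Nat.eq_zero_or_pos f with rfl | hf0
  · have : 0 < p ^ e := Nat.pos_of_ne_zero (pow_ne_zero _ h.prime.ne_zero)
    omega
  rcases e with _ | _ | e
  · rw [pow_zero] at hcardE
    have : p * 3 ≤ p * f * p := by nlinarith
    omega
  · rw [zero_add, pow_one] at hcardE
    have : p * 3 ≤ p * f * p := by nlinarith
    omega
  · have h1 : p * (p ^ (e + 1) + 1) = p * (f * p) := by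
      calc p * (p ^ (e + 1) + 1) = p ^ (e + 1 + 1) + p := by ring
        _ = p * f * p := hcardE
        _ = _ := by ring
    have h2 := Nat.eq_of_mul_eq_mul_left h.prime.pos h1
    have h3 : p ∣ p ^ (e + 1) + 1 := ⟨f, by rw [h2]; ring⟩
    have h4 : p ∣ p ^ (e + 1) := dvd_pow_self p (by omega)
    have h5 : p ∣ 1 := (Nat.dvd_add_right h4).1 h3
    exact h.prime.one_lt.ne' (Nat.dvd_one.1 h5)

end Cliq

end Cfsg.Agent.RankThree
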