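import Mathlib
import Cfsg.Agent.RankThree.Clique2

/-!
A finite group generated by a normal set of involutions whose products have order 1, 2 or `p`,
`p ≥ 5` a prime, is solvable; rank three classes of involutions.
-/

set_option autoImplicit false

namespace Cfsg.Agent.RankThree

universe u

/-- the hypothesis: the odd order theorem -/
def OddOrder : Prop := ∀ (H : Type u) [Group H] [Finite H], Odd (Nat.card H) → Group.IsSolvable H

theorem Min.false {G : Type u} [Group G] [Finite G] (hFT : OddOrder.{u}) {p : ℕ} {D : Set G}
    (hp : p.Prime) (hp5 : 5 ≤ p) (h : Min p D) : False := by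
  have hp2 : p ≠ 2 := by omega
  have hpo : Odd p := hp.odd_of_ne_two hp2
  have hp3 : p.Coprime 3 := (Nat.coprime_primes hp Nat.prime_three).2 (by omega)
  have hord : ∀ d ∈ D, orderOf d = 2 := fun d hd =>
    orderOf_eq_prime (by rw [pow_two]; exact h.sq d hd) (h.ne d hd)
  obtain ⟨d0, hd0⟩ := h.nonempty
  have hsingle : ∀ x ∈ D, ∀ y ∈ D, ∃ g : G, g * x * g⁻¹ = y := by
    intro x hx y hy
    rcases h.near hpo hp3 hx hy with rfl | h1 | ⟨b, hb, hbx, hby⟩
    · exact ⟨1, by simp⟩
    · obtain ⟨g, -, hg⟩ := h.conj_of_not_commute hpo hx hy h1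
      exact ⟨g, hg⟩
    · obtain ⟨g, -, hg⟩ := h.conj_of_not_commute hpo hx hb (fun e => hbx e.symm)
      obtain ⟨k, -, hk⟩ := h.conj_of_not_commute hpo hb hy hby
      exact ⟨k * g, by rw [← hk, ← hg]; group⟩
  by_cases hex : ∃ x ∈ D, ∃ y ∈ D, x * y = y * x ∧ x ≠ y
  · have hexn : ∃ x ∈ D, ∃ y ∈ D, x * y ≠ y * x := by
      by_contra hno
      push Not at hno
      have : ∀ g : G, d0 * g = g * d0 := by
        intro g
        apply commute_closure (S := D) (hno d0 hd0)
        rw [h.gen]; trivial
      exact h.ne d0 hd0 (h.center_eq_one this)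
    have hcl : Cliq p D :=
      { toPSet := h.toPSet
        prime := hp
        two := hp2
        trans := fun x hx y hy z hz h1 h2 => h.comm_trans hpo hp3 hx hy hz h1 h2
        closed := fun x hx y hy h1 h2 => h.mulD_mem hpo hp3 hx hy h1 h2
        single := hsingle
        exc := hex
        exn := hexn
        cent := by
          intro x hx y hy hxy g hgx hgy
          obtain ⟨S, hS⟩ : ∃ S : Set G, S = {d | d ∈ D ∧ (d * x = x * d ∨ d * y = y * d)} :=
            ⟨_, rfl⟩
          have hSD : S ⊆ D := by rw [hS]; exact fun d hd => hd.1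
          have hgS : ∀ s ∈ S, g * s = s * g := by
            rw [hS]
            rintro s ⟨hs, h1 | h1⟩
            · exact hgx s hs h1
            · exact hgy s hs h1
          have htop : Subgroup.closure S = ⊤ := by
            by_contra hne
            have hsol := h.sub S hSD hne
            -- a commuting element
            obtain ⟨a, ha, c, hc, hac, hacne⟩ := hex
            obtain ⟨k, hk⟩ := hsingle a ha x hx
            have hc'D : k * c * k⁻¹ ∈ D := h.conj c hc k
            obtain ⟨c', hc'⟩ : ∃ c', c' = k * c * k⁻¹ := ⟨_, rfl⟩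
            rw [← hc'] at hc'D
            have hxc : x * c' = c' * x := by
              rw [← hk, hc']
              calc k * a * k⁻¹ * (k * c * k⁻¹) = k * (a * c) * k⁻¹ := by group
                _ = k * (c * a) * k⁻¹ := by rw [hac]
                _ = _ := by group
            have hxne : x ≠ c' := by
              intro e
              rw [← hk, hc'] at e
              exact hacne (mul_left_cancel (mul_right_cancel e))
            have hxcD := h.mulD_mem hpo hp3 hx hc'D hxc hxne
            have hxS : x ∈ S := by rw [hS]; exact ⟨hx, Or.inl rfl⟩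
            have hyS : y ∈ S := by rw [hS]; exact ⟨hy, Or.inr rfl⟩
            have hcS : c' ∈ S := by rw [hS]; exact ⟨hc'D, Or.inl hxc.symm⟩
            have hxc2 : x * (x * c') = (x * c') * x := by
              rw [mul_assoc, ← hxc]
            have hxcS : x * c' ∈ S := by rw [hS]; exact ⟨hxcD, Or.inl hxc2.symm⟩
            have hxy' := mono_closure (T := S) (by rintro s (rfl | rfl) <;> assumption)
              (h.conj_of_not_commute hpo hx hy hxy)
            have hprod : x * c' * (x * c') = 1 := h.sq _ hxcD
            have := commute_of_closure_solvable hsol hxS hcS hxcS hyS (h.sq x hx) (by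
              intro s hs
              have hs' := hs
              rw [hS] at hs'
              obtain ⟨hsD, h1 | h1⟩ := hs'
              · have h2 : y * s ≠ s * y := by
                  intro e
                  exact hxy (h.comm_trans hpo hp3 hx hsD hy h1.symm e.symm)
                exact trans_closure hxy' (mono_closure (T := S)
                  (by rintro s (rfl | rfl) <;> assumption) (h.conj_of_not_commute hpo hy hsD h2))
              · have h2 : x * s ≠ s * x := by
                  intro e
                  exact hxy (h.comm_trans hpo hp3 hx hsD hy e h1)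
                exact mono_closure (T := S)
                  (by rintro s (rfl | rfl) <;> assumption) (h.conj_of_not_commute hpo hx hsD h2))
              hxc hxc2 (by
                intro s _
                rw [hprod, one_mul, mul_one])
            exact hxy this
          apply h.center_eq_one
          intro k
          apply commute_closure hgS
          rw [htop]; trivial }
    exact hcl.false
  · push Not at hex
    have hodd : ∀ d ∈ D, ∀ e ∈ D, Odd (orderOf (d * e)) := by
      intro d hd e he
      by_cases hde : d * e = e * d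
      · rw [hex d hd e he hde, h.sq e he, orderOf_one]
        exact odd_one
      · exact hpo.of_dvd_nat (orderOf_dvd_of_pow_eq_one (h.pow_eq_one hd he hde))
    have := central_of_odd hord h.conj hodd (fun N hN hNo => h.ns N hN (hFT N hNo)) hd0
    exact h.ne d0 hd0 (h.center_eq_one this)

theorem PSet.subgroup {G : Type u} [Group G] {p : ℕ} {D : Set G} (h : PSet p D) (H : Subgroup G) :
    PSet p {x : H | (x : G) ∈ D} where
  ne := by
    rintro ⟨x, hx⟩ hxD e
    exact h.ne x hxD (congrArg Subtype.val e)
  sq := by
    rintro ⟨x, hx⟩ hxD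
    exact Subtype.ext (h.sq x hxD)
  conj := by
    rintro ⟨x, hx⟩ hxD ⟨g, hg⟩
    exact h.conj x hxD g
  prod := by
    rintro ⟨x, hx⟩ hxD ⟨y, hy⟩ hyD
    rcases h.prod x hxD y hyD with h1 | h1
    · exact Or.inl (Subtype.ext h1)
    · exact Or.inr (Subtype.ext h1)

theorem PSet.quotient {G : Type u} [Group G] {p : ℕ} {D : Set G} (h : PSet p D)
    (N : Subgroup G) [N.Normal] :
    PSet p {x : G ⧸ N | x ≠ 1 ∧ ∃ d ∈ D, QuotientGroup.mk' N d = x} where
  ne := by
    rintro x ⟨hx, -⟩
    exact hx
  sq := by
    rintro x ⟨-, d, hd, rfl⟩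
    rw [← map_mul, h.sq d hd, map_one]
  conj := by
    rintro x ⟨hx, d, hd, rfl⟩ g
    obtain ⟨g, rfl⟩ := QuotientGroup.mk'_surjective N g
    refine ⟨?_, g * d * g⁻¹, h.conj d hd g, by simp⟩
    intro e
    apply hx
    rw [mul_inv_eq_one] at e
    exact mul_eq_left.1 e
  prod := by
    rintro x ⟨-, d, hd, rfl⟩ y ⟨-, e, he, rfl⟩
    rcases h.prod d hd e he with h1 | h1
    · left
      rw [← map_mul, h1, map_mul]
    · right
      rw [← map_mul, ← map_pow, h1, map_one]

theorem solvable_aux (hFT : OddOrder.{u}) {p : ℕ} (hp : p.Prime) (hp5 : 5 ≤ p) :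
    ∀ n : ℕ, ∀ (G : Type u) [Group G] [Finite G] (D : Set G), PSet p D →
      Subgroup.closure D = ⊤ → Nat.card G = n → Group.IsSolvable G := by
  intro n
  induction n using Nat.strong_induction_on with
  | _ n ih =>
    intro G _ _ D hD hgen hn
    by_contra hnsol
    have hmin : Min p D :=
      { toPSet := hD
        gen := hgen
        nonempty := by
          by_contra hne
          rw [Set.not_nonempty_iff_eq_empty] at hne
          apply hnsol
          rw [hne, Subgroup.closure_empty] at hgen
          exact Group.isSolvable_of_top_eq_bot G hgen.symm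
        sub := by
          intro S hS hne
          apply ih (Nat.card (Subgroup.closure S)) _ (Subgroup.closure S) _
            (hD.subgroup (Subgroup.closure S)) _ rfl
          · rw [← hn]
            exact lt_of_le_of_ne (Subgroup.card_le_card_group _)
              (fun e => hne (Subgroup.eq_top_of_card_eq _ e))
          · rw [eq_top_iff, ← Subgroup.closure_closure_coe_preimage (k := S), Subgroup.closure_le]
            intro x hx
            exact Subgroup.subset_closure (hS hx)
        ns := by
          intro N hN hNs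
          by_contra hne
          apply hnsol
          rw [Group.isSolvable_iff_subgroup_quotient N]
          refine ⟨hNs, ?_⟩
          apply ih (Nat.card (G ⧸ N)) _ (G ⧸ N) _ (hD.quotient N) _ rfl
          · rw [← hn]
            have h1 := Subgroup.card_eq_card_quotient_mul_card_subgroup N
            have h2 : 1 < Nat.card N := by
              rw [Finite.one_lt_card_iff_nontrivial, Subgroup.nontrivial_iff_ne_bot]
              exact hne
            have h3 : 0 < Nat.card (G ⧸ N) := Nat.card_pos
            rw [h1]
            nlinarith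
          · rw [eq_top_iff]
            intro x _
            obtain ⟨x, rfl⟩ := QuotientGroup.mk'_surjective N x
            have hx : x ∈ Subgroup.closure D := by rw [hgen]; trivial
            have h1 : QuotientGroup.mk' N x ∈ (Subgroup.closure D).map (QuotientGroup.mk' N) :=
              ⟨x, hx, rfl⟩
            rw [MonoidHom.map_closure] at h1
            have h2 : Subgroup.closure ((QuotientGroup.mk' N) '' D) ≤ Subgroup.closure
                {x : G ⧸ N | x ≠ 1 ∧ ∃ d ∈ D, QuotientGroup.mk' N d = x} := by
              rw [Subgroup.closure_le]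
              rintro _ ⟨d, hd, rfl⟩
              by_cases h3 : QuotientGroup.mk' N d = 1
              · rw [h3]; exact one_mem _
              · exact Subgroup.subset_closure ⟨h3, d, hd, rfl⟩
            exact h2 h1 }
    exact hmin.false hFT hp hp5

/-- A finite group generated by a normal set of involutions all of whose products have order
1, 2 or `p` (`p ≥ 5` a prime) is solvable. -/
theorem solvable_of_pset (hFT : OddOrder.{u}) {p : ℕ} (hp : p.Prime) (hp5 : 5 ≤ p) (G : Type u)
    [Group G] [Finite G] {D : Set G} (hD : PSet p D) (hgen : Subgroup.closure D = ⊤) :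
    Group.IsSolvable G := solvable_aux hFT hp hp5 _ G D hD hgen rfl

/-- reflections of a normal set of involutions -/
theorem refl_mem' {G : Type u} [Group G] {D : Set G} (hsq : ∀ d ∈ D, d * d = 1)
    (hconj : ∀ d ∈ D, ∀ g : G, g * d * g⁻¹ ∈ D) {x y : G} (hx : x ∈ D) (hy : y ∈ D) (i : ℕ) :
    (y * x) ^ i * x ∈ D := by
  rcases Nat.even_or_odd' i with ⟨j, rfl | rfl⟩
  · rw [← refl_conj (hsq x hx) (hsq y hy)]
    exact hconj x hx _
  · have hxi : x⁻¹ = x := inv_eq_of_mul_eq_one_left (hsq x hx)
    have hyi : y⁻¹ = y := inv_eq_of_mul_eq_one_left (hsq y hy)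
    have h4 : ∀ j : ℕ, (y * x) ^ j * y = y * (x * y) ^ j := by
      intro j
      induction j with
      | zero => simp
      | succ j ih =>
        rw [pow_succ', mul_assoc, ih, pow_succ']
        simp only [mul_assoc]
    -- `(y x)^(2 j + 1) x = (y x)^(2 j) y`
    have h5 : (y * x) ^ (2 * j + 1) * x = (y * x) ^ j * y * ((y * x) ^ j)⁻¹ := by
      have h6 : ∀ j : ℕ, y * ((y * x) ^ j)⁻¹ = (y * x) ^ j * y := by
        intro j
        rw [h4]
        congr 1
        rw [← inv_pow, mul_inv_rev, hxi, hyi]
      rw [mul_assoc ((y * x) ^ j), h6, ← mul_assoc, ← pow_add, ← two_mul, pow_succ, mul_assoc,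
        mul_assoc y, hsq x hx, mul_one]
    rw [h5]
    exact hconj y hy _

/-- The rank three theorem (conclusion: products have order at most three). -/
theorem rank_three (hFT : OddOrder.{u}) {G : Type u} [Group G] [Finite G]
    (hsol : ∀ N : Subgroup G, N.Normal → Group.IsSolvable N → N = ⊥) {D : Set G}
    (hinv : ∀ d ∈ D, orderOf d = 2) (hconj : ∀ d ∈ D, ∀ g : G, g * d * g⁻¹ ∈ D)
    (hgen : Subgroup.closure D = ⊤) (m n : ℕ)
    (hmn : ∀ x ∈ D, ∀ y ∈ D, orderOf (x * y) = 1 ∨ orderOf (x * y) = m ∨ orderOf (x * y) = n)
    {d e : G} (hd : d ∈ D) (he : e ∈ D) : (d * e) ^ 2 = 1 ∨ (d * e) ^ 3 = 1 := by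
  by_contra hcon
  push Not at hcon
  obtain ⟨hcon2, hcon3⟩ := hcon
  have hsq : ∀ x ∈ D, x * x = 1 := by
    intro x hx
    have := pow_orderOf_eq_one x
    rwa [hinv x hx, pow_two] at this
  have hcomm : ∀ x ∈ D, ∀ y ∈ D, (x * y) ^ 2 = 1 → x * y = y * x := by
    intro x hx y hy h1
    rw [pow_two] at h1
    have h2 := eq_inv_of_mul_eq_one_left h1
    rw [mul_inv_rev, inv_eq_of_mul_eq_one_left (hsq x hx),
      inv_eq_of_mul_eq_one_left (hsq y hy)] at h2
    exact h2
  have hcomm' : ∀ x ∈ D, ∀ y ∈ D, x * y = y * x → (x * y) ^ 2 = 1 := by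
    intro x hx y hy h1
    have h2 : Commute x y := h1
    rw [h2.mul_pow, pow_two, pow_two, hsq x hx, hsq y hy, one_mul]
  have hd1 : d ≠ 1 := by
    rintro rfl
    have := hinv 1 hd
    rw [orderOf_one] at this
    omega
  have hNpos : 0 < orderOf (d * e) := orderOf_pos _
  -- divisors of product orders are product orders
  have hdiv : ∀ x ∈ D, ∀ y ∈ D, ∀ k, k ∣ orderOf (x * y) → ∃ z ∈ D, orderOf (z * y) = k := by
    intro x hx y hy k hk
    obtain ⟨l, hl⟩ := hk
    have hpos : 0 < orderOf (x * y) := orderOf_pos _
    have hl0 : l ≠ 0 := by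
      rintro rfl
      omega
    refine ⟨(x * y) ^ l * y, refl_mem' hsq hconj hy hx l, ?_⟩
    rw [mul_assoc, hsq y hy, mul_one, orderOf_pow_of_dvd hl0 ⟨k, by rw [hl, mul_comm]⟩, hl]
    exact Nat.mul_div_cancel k (Nat.pos_of_ne_zero hl0)
  -- case (a): all orders odd
  by_cases hodd : ∀ x ∈ D, ∀ y ∈ D, Odd (orderOf (x * y))
  · have hcen := central_of_odd hinv hconj hodd (fun N hN hNo => hsol N hN (hFT N hNo)) hd
    exact hcon2 (hcomm' d hd e he (hcen e))
  push Not at hodd
  obtain ⟨x, hx, y, hy, hxy⟩ := hodd
  rw [Nat.not_odd_iff_even] at hxy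
  obtain ⟨z, hz, hz2⟩ := hdiv x hx y hy 2 hxy.two_dvd
  obtain ⟨N, hN⟩ : ∃ N, ∀ x ∈ D, ∀ y ∈ D, orderOf (x * y) = 1 ∨ orderOf (x * y) = 2 ∨
      orderOf (x * y) = N := by
    rcases hmn z hz y hy with h1 | h1 | h1
    · omega
    · refine ⟨n, fun a ha b hb => ?_⟩
      rcases hmn a ha b hb with h2 | h2 | h2
      · exact Or.inl h2
      · exact Or.inr (Or.inl (by omega))
      · exact Or.inr (Or.inr h2)
    · refine ⟨m, fun a ha b hb => ?_⟩
      rcases hmn a ha b hb with h2 | h2 | h2
      · exact Or.inl h2
      · exact Or.inr (Or.inr h2)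
      · exact Or.inr (Or.inl (by omega))
  have hde : orderOf (d * e) = N := by
    rcases hN d hd e he with h1 | h1 | h1
    · exfalso
      apply hcon2
      rw [orderOf_eq_one_iff] at h1
      rw [h1, one_pow]
    · exfalso
      apply hcon2
      rw [← h1, pow_orderOf_eq_one]
    · exact h1
  have hNdiv : ∀ k, k ∣ N → k = 1 ∨ k = 2 ∨ k = N := by
    intro k hk
    rw [← hde] at hk
    obtain ⟨z, hz, hzk⟩ := hdiv d hd e he k hk
    rcases hN z hz e he with h1 | h1 | h1
    · exact Or.inl (by omega)
    · exact Or.inr (Or.inl (by omega))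
    · exact Or.inr (Or.inr (by omega))
  have hN1 : N ≠ 1 := by
    rintro rfl
    rw [orderOf_eq_one_iff] at hde
    apply hcon2
    rw [hde, one_pow]
  have hN2 : N ≠ 2 := by
    rintro rfl
    apply hcon2
    rw [← hde, pow_orderOf_eq_one]
  have hN3 : N ≠ 3 := by
    rintro rfl
    apply hcon3
    rw [← hde, pow_orderOf_eq_one]
  have hnt : (⊤ : Subgroup G) ≠ ⊥ := by
    intro h1
    apply hd1
    have : d ∈ (⊤ : Subgroup G) := trivial
    rwa [h1, Subgroup.mem_bot] at this
  by_cases hNp : N.Prime
  · have hN5 : 5 ≤ N := by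
      have := hNp.two_le
      by_contra hlt
      have h4 : N = 4 := by omega
      rw [h4] at hNp
      exact absurd hNp (by norm_num)
    have hD : PSet N D :=
      { ne := by
          rintro x hx rfl
          have := hinv 1 hx
          rw [orderOf_one] at this
          omega
        sq := hsq
        conj := hconj
        prod := by
          intro x hx y hy
          rcases hN x hx y hy with h1 | h1 | h1
          · left
            apply hcomm x hx y hy
            rw [orderOf_eq_one_iff] at h1
            rw [h1, one_pow]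
          · left
            apply hcomm x hx y hy
            rw [← h1, pow_orderOf_eq_one]
          · right
            rw [← h1, pow_orderOf_eq_one] }
    have hsolG := solvable_of_pset hFT hNp hN5 G hD hgen
    exact hnt (hsol ⊤ inferInstance inferInstance)
  · have hmf := Nat.minFac_prime hN1
    have h2N : 2 ∣ N := by
      rcases hNdiv _ (Nat.minFac_dvd N) with h1 | h1 | h1
      · exact absurd h1 hmf.one_lt.ne'
      · rw [← h1]; exact Nat.minFac_dvd N
      · rw [h1] at hmf; exact absurd hmf hNp
    obtain ⟨k, hk⟩ := h2N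
    have hN4 : N = 4 := by
      rcases hNdiv k ⟨2, by omega⟩ with h1 | h1 | h1 <;> omega
    have h4 : ∀ x ∈ D, ∀ y ∈ D, (x * y) ^ (2 ^ 2) = 1 := by
      intro x hx y hy
      rw [← orderOf_dvd_iff_pow_eq_one]
      rcases hN x hx y hy with h1 | h1 | h1 <;> rw [h1] <;> [norm_num; norm_num; (rw [hN4]; norm_num)]
    obtain ⟨M, hM, hM2, hdM⟩ := Cfsg.Agent.H4.baer_suzuki_elem (p := 2) d (by
      intro g
      exact isPGroup_two_of_pow (hsq d hd) (hsq _ (hconj d hd g)) (h4 d hd _ (hconj d hd g)))
    have hMs : Group.IsSolvable M := by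
      have : Group.IsNilpotent M := hM2.isNilpotent
      infer_instance
    have := hsol M hM hMs
    rw [this, Subgroup.mem_bot] at hdM
    exact hd1 hdM

end Cfsg.Agent.RankThree
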